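import Mathlib
import Cfsg.Prelude.Def_JordanBlocks

set_option autoImplicit false

namespace Cfsg.Agent.Lib.Linalg.JordanCent

variable {t : ℕ} {d : Fin t → ℕ} {F : Type*} [Field F]

/-- index type -/
abbrev Idx (d : Fin t → ℕ) := (k : Fin t) × Fin (d k)

/-- extended entries -/
def ent (A : Matrix (Idx d) (Idx d) F) (k l : Fin t) (a b : ℕ) : F :=
  if h : a < d k ∧ b < d l then A ⟨k, ⟨a, h.1⟩⟩ ⟨l, ⟨b, h.2⟩⟩ else 0

lemma ent_eq (A : Matrix (Idx d) (Idx d) F) (k l : Fin t) (a b : Nat) (ha : a < d k)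
    (hb : b < d l) : ent A k l a b = A ⟨k, ⟨a, ha⟩⟩ ⟨l, ⟨b, hb⟩⟩ := by
  simp [ent, ha, hb]

lemma ent_right_out (A : Matrix (Idx d) (Idx d) F) (k l : Fin t) (a b : Nat)
    (hb : d l ≤ b) : ent A k l a b = 0 := by
  simp [ent, Nat.not_lt.mpr hb]

lemma ent_left_out (A : Matrix (Idx d) (Idx d) F) (k l : Fin t) (a b : Nat)
    (ha : d k ≤ a) : ent A k l a b = 0 := by
  simp [ent, Nat.not_lt.mpr ha]

variable (d F) in
/-- the nilpotent part -/
def nilp : Matrix (Idx d) (Idx d) F :=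
  Matrix.of fun i j => if i.1 = j.1 ∧ (i.2 : ℕ) = j.2 + 1 then 1 else 0

lemma jordan_eq : Cfsg.jordanTypeMatrix d F = 1 + nilp d F := by
  ext ⟨k, a⟩ ⟨l, b⟩
  by_cases h : k = l
  · subst h
    simp only [Cfsg.jordanTypeMatrix, Matrix.blockDiagonal'_apply_eq, Cfsg.jordanBlock, Matrix.of_apply,
      Matrix.add_apply, Matrix.one_apply, nilp, true_and, Sigma.mk.inj_iff, heq_eq_eq, Fin.ext_iff]
    by_cases h1 : (a : ℕ) = b
    · have : ¬ (a : ℕ) = b + 1 := by omega
      simp [h1]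
    · simp [h1]
  · have h' : (⟨k, a⟩ : Idx d) ≠ ⟨l, b⟩ := by
      intro e; exact h (congrArg Sigma.fst e)
    simp only [Cfsg.jordanTypeMatrix, Matrix.add_apply, Matrix.one_apply, h', if_false, nilp, Matrix.of_apply, h,
      false_and, add_zero]
    rw [Matrix.blockDiagonal'_apply_ne _ _ _ h]

lemma mul_nilp_apply (A : Matrix (Idx d) (Idx d) F) (k l : Fin t) (a : Fin (d k)) (b : Fin (d l)) :
    (A * nilp d F) ⟨k, a⟩ ⟨l, b⟩ = ent A k l a (b + 1) := by
  simp only [Matrix.mul_apply, nilp, Matrix.of_apply]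
  by_cases h : (b : ℕ) + 1 < d l
  · rw [Finset.sum_eq_single (⟨l, ⟨b + 1, h⟩⟩ : Idx d)]
    · simp [ent, h, a.2]
    · rintro ⟨m, c⟩ - hne
      have : ¬ (m = l ∧ (c : ℕ) = b + 1) := by
        rintro ⟨rfl, h2⟩
        apply hne
        simp [Fin.ext_iff, h2]
      simp [this]
    · simp
  · rw [ent_right_out _ _ _ _ _ (by omega)]
    apply Finset.sum_eq_zero
    rintro ⟨m, c⟩ -
    have : ¬ (m = l ∧ (c : ℕ) = b + 1) := by
      rintro ⟨rfl, h2⟩
      have := c.2
      omega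
    simp [this]

lemma nilp_mul_apply (A : Matrix (Idx d) (Idx d) F) (k l : Fin t) (a : Fin (d k)) (b : Fin (d l)) :
    (nilp d F * A) ⟨k, a⟩ ⟨l, b⟩ = if (a : ℕ) = 0 then 0 else ent A k l (a - 1) b := by
  simp only [Matrix.mul_apply, nilp, Matrix.of_apply]
  by_cases h : (a : ℕ) = 0
  · rw [if_pos h]
    apply Finset.sum_eq_zero
    rintro ⟨m, c⟩ -
    have : ¬ (k = m ∧ (a : ℕ) = c + 1) := by
      rintro ⟨rfl, h2⟩
      omega
    simp [this]
  · rw [if_neg h]
    have ha := a.2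
    have h1 : (a : ℕ) - 1 < d k := by omega
    rw [Finset.sum_eq_single (⟨k, ⟨a - 1, h1⟩⟩ : Idx d)]
    · have : (a : ℕ) = a - 1 + 1 := by omega
      simp [ent, h1, b.2]
      omega
    · rintro ⟨m, c⟩ - hne
      have : ¬ (k = m ∧ (a : ℕ) = c + 1) := by
        rintro ⟨rfl, h2⟩
        apply hne
        simp [Fin.ext_iff, h2]
      simp [this]
    · simp

/-- the commutation relations in entries -/
structure Rel (A : Matrix (Idx d) (Idx d) F) : Prop where
  r1 : ∀ k l a b, a + 1 < d k → b < d l → ent A k l (a + 1) (b + 1) = ent A k l a b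
  r2 : ∀ k l b, 0 < d k → b < d l → ent A k l 0 (b + 1) = 0

lemma comm_iff (A : Matrix (Idx d) (Idx d) F) :
    A * Cfsg.jordanTypeMatrix d F = Cfsg.jordanTypeMatrix d F * A ↔ Rel A := by
  rw [jordan_eq, mul_add, add_mul, mul_one, one_mul, add_right_inj]
  constructor
  · intro h
    refine ⟨fun k l a b ha hb => ?_, fun k l b hk hb => ?_⟩
    · have := congrFun (congrFun h ⟨k, ⟨a + 1, ha⟩⟩) ⟨l, ⟨b, hb⟩⟩
      rw [mul_nilp_apply, nilp_mul_apply] at this
      simpa using this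
    · have := congrFun (congrFun h ⟨k, ⟨0, hk⟩⟩) ⟨l, ⟨b, hb⟩⟩
      rw [mul_nilp_apply, nilp_mul_apply] at this
      simpa using this
  · intro h
    ext ⟨k, a⟩ ⟨l, b⟩
    rw [mul_nilp_apply, nilp_mul_apply]
    by_cases h0 : (a : ℕ) = 0
    · rw [if_pos h0, h0]
      exact h.r2 k l b (by have := a.2; omega) b.2
    · rw [if_neg h0]
      have := h.r1 k l (a - 1) b (by have := a.2; omega) b.2
      rwa [show (a : ℕ) - 1 + 1 = a by omega] at this

section Rel
variable {A : Matrix (Idx d) (Idx d) F} (hA : Rel A)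
include hA

lemma ent_shift (k l : Fin t) (s j : ℕ) (hs : s + j < d k) (hj : j ≤ d l) :
    ent A k l s 0 = ent A k l (s + j) j := by
  induction j with
  | zero => rfl
  | succ j ih =>
    rw [ih (by omega) (by omega)]
    exact (hA.r1 k l (s + j) j (by omega) (by omega)).symm

lemma ent_zero_of_lt (k l : Fin t) (s : ℕ) (hs : s + d l < d k) : ent A k l s 0 = 0 := by
  rw [ent_shift hA k l s (d l) hs le_rfl]
  exact ent_right_out _ _ _ _ _ le_rfl

lemma ent_of_lt (k l : Fin t) (a b : ℕ) (h : a < b) : ent A k l a b = 0 := by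
  by_cases ha : a < d k
  · induction a generalizing b with
    | zero =>
      obtain ⟨b, rfl⟩ : ∃ c, b = c + 1 := ⟨b - 1, by omega⟩
      by_cases hb : b < d l
      · exact hA.r2 k l b ha hb
      · exact ent_right_out _ _ _ _ _ (by omega)
    | succ a ih =>
      obtain ⟨b, rfl⟩ : ∃ c, b = c + 1 := ⟨b - 1, by omega⟩
      by_cases hb : b < d l
      · rw [hA.r1 k l a b ha hb]
        exact ih b (by omega) (by omega)
      · exact ent_right_out _ _ _ _ _ (by omega)
  · exact ent_left_out _ _ _ _ _ (by omega)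

lemma ent_sub (k l : Fin t) (a b : ℕ) (ha : a < d k) (hb : b < d l) (h : b ≤ a) :
    ent A k l a b = ent A k l (a - b) 0 := by
  have := ent_shift hA k l (a - b) b (by omega) (by omega)
  rw [this, show a - b + b = a by omega]

lemma ent_diag (k l : Fin t) (a : ℕ) (hk : a < d k) (hl : a < d l) :
    ent A k l a a = ent A k l 0 0 := by
  rw [ent_sub hA k l a a hk hl le_rfl, Nat.sub_self]

end Rel

/-- the parameter space -/
abbrev Par (d : Fin t → ℕ) := (k : Fin t) × (l : Fin t) × Fin (min (d k) (d l))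

lemma card_par : Fintype.card (Par d) = ∑ k, ∑ l, min (d k) (d l) := by
  simp [Par, Fintype.card_sigma]

/-- the extended parameter -/
def parExt (c : Par d → F) (k l : Fin t) (x : ℕ) : F :=
  if h : x < min (d k) (d l) then c ⟨k, l, ⟨x, h⟩⟩ else 0

/-- matrix of a parameter -/
def ofPar (c : Par d → F) : Matrix (Idx d) (Idx d) F :=
  Matrix.of fun i j =>
    if (j.2 : ℕ) ≤ i.2 ∧ d i.1 ≤ i.2 - j.2 + d j.1 then
      parExt c i.1 j.1 (i.2 - j.2 - (d i.1 - d j.1)) else 0

lemma ent_ofPar (c : Par d → F) (k l : Fin t) (a b : ℕ) (ha : a < d k) (hb : b < d l) :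
    ent (ofPar c) k l a b = if b ≤ a ∧ d k ≤ a - b + d l then parExt c k l (a - b - (d k - d l)) else 0 := by
  rw [ent_eq _ _ _ _ _ ha hb]
  rfl

lemma rel_ofPar (c : Par d → F) : Rel (ofPar c) := by
  refine ⟨fun k l a b ha hb => ?_, fun k l b hk hb => ?_⟩
  · by_cases hb' : b + 1 < d l
    · rw [ent_ofPar c k l _ _ ha hb', ent_ofPar c k l _ _ (by omega) hb]
      have e1 : a + 1 - (b + 1) = a - b := by omega
      simp only [e1, Nat.add_le_add_iff_right]
    · rw [ent_right_out _ _ _ _ _ (by omega), ent_ofPar c k l _ _ (by omega) hb, if_neg]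
      rintro ⟨h1, h2⟩
      omega
  · by_cases hb' : b + 1 < d l
    · rw [ent_ofPar c k l _ _ hk hb', if_neg]
      rintro ⟨h1, h2⟩
      omega
    · exact ent_right_out _ _ _ _ _ (by omega)

/-- parameter of a matrix -/
def toPar (A : Matrix (Idx d) (Idx d) F) (p : Par d) : F :=
  ent A p.1 p.2.1 (p.2.2 + (d p.1 - d p.2.1)) 0

lemma toPar_ofPar (c : Par d → F) : toPar (ofPar c) = c := by
  funext ⟨k, l, ⟨x, hx⟩⟩
  have hx1 : x < d k := lt_of_lt_of_le hx (min_le_left _ _)
  have hx2 : x < d l := lt_of_lt_of_le hx (min_le_right _ _)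
  simp only [toPar]
  rw [ent_ofPar c k l _ _ (by omega) (by omega), if_pos (by omega)]
  have : x + (d k - d l) - 0 - (d k - d l) = x := by omega
  rw [this, parExt, dif_pos hx]

lemma ofPar_toPar {A : Matrix (Idx d) (Idx d) F} (hA : Rel A) : ofPar (toPar A) = A := by
  ext ⟨k, a⟩ ⟨l, b⟩
  have h1 := ent_ofPar (toPar A) k l a b a.2 b.2
  have h3 := ent_eq A k l a b a.2 b.2
  rw [ent_eq _ _ _ _ _ a.2 b.2] at h1
  rw [h1, ← h3]
  have ha := a.2
  have hb := b.2
  by_cases h : (b : ℕ) ≤ a ∧ d k ≤ a - b + d l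
  · rw [if_pos h, parExt, dif_pos (by omega), ent_sub hA k l a b ha hb h.1]
    simp only [toPar]
    congr 1
    omega
  · rw [if_neg h]
    by_cases h2 : (b : ℕ) ≤ a
    · rw [ent_sub hA k l a b ha hb h2]
      exact (ent_zero_of_lt hA k l _ (by omega)).symm
    · exact (ent_of_lt hA k l a b (by omega)).symm

/-- the centraliser algebra as an additive subgroup -/
def centAdd (d : Fin t → ℕ) (F : Type*) [Field F] : AddSubgroup (Matrix (Idx d) (Idx d) F) where
  carrier := {A | A * Cfsg.jordanTypeMatrix d F = Cfsg.jordanTypeMatrix d F * A}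
  add_mem' := by
    intro A B hA hB
    simp only [Set.mem_ofPred_eq] at hA hB ⊢
    rw [add_mul, mul_add, hA, hB]
  zero_mem' := by
    simp
  neg_mem' := by
    intro A hA
    simp only [Set.mem_ofPred_eq] at hA ⊢
    rw [neg_mul, mul_neg, hA]

lemma mem_centAdd {A : Matrix (Idx d) (Idx d) F} : A ∈ centAdd d F ↔ Rel A := by
  rw [← comm_iff]; rfl

/-- parametrisation of the centraliser algebra -/
def centEquivPar : centAdd d F ≃ (Par d → F) where
  toFun A := toPar A.1
  invFun c := ⟨ofPar c, mem_centAdd.2 (rel_ofPar c)⟩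
  left_inv A := Subtype.ext (ofPar_toPar (mem_centAdd.1 A.2))
  right_inv c := toPar_ofPar c

/-- size fibre -/
abbrev Fib (d : Fin t → ℕ) (i : ℕ) := {k : Fin t // d k = i}

/-- the diagonal block of `ent _ 0 0` in size `i` -/
def diagBlock (A : Matrix (Idx d) (Idx d) F) (i : ℕ) : Matrix (Fib d i) (Fib d i) F :=
  Matrix.of fun k l => ent A k.1 l.1 0 0

/-- block order -/
def lev (i : Idx d) : ℕᵒᵈ ×ₗ ℕ := toLex (OrderDual.toDual (i.2 : ℕ), d i.1)

lemma blockTri {A : Matrix (Idx d) (Idx d) F} (hA : Rel A) : A.BlockTriangular lev := by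
  rintro ⟨k, a⟩ ⟨l, b⟩ h
  simp only [lev, Prod.Lex.toLex_lt_toLex] at h
  rw [← ent_eq A k l a b a.2 b.2]
  rcases h with h | ⟨h1, h2⟩
  · exact ent_of_lt hA k l a b h
  · have h1' : (b : ℕ) = a := h1
    have h2' : d l < d k := h2
    rw [← h1', ent_diag hA k l b (by have := a.2; omega) b.2]
    exact ent_zero_of_lt hA k l 0 (by omega)

/-- the identification of a level block with a size fibre -/
def blockEquiv (k₀ : Fin t) (a₀ : Fin (d k₀)) :
    {j : Idx d // lev j = lev (⟨k₀, a₀⟩ : Idx d)} ≃ Fib d (d k₀) where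
  toFun j := ⟨j.1.1, by
    have h := j.2
    simp only [lev] at h
    have := toLex.injective h
    exact congrArg Prod.snd this⟩
  invFun l := ⟨⟨l.1, ⟨a₀, by rw [l.2]; exact a₀.2⟩⟩, by
    simp only [lev]
    rw [l.2]⟩
  left_inv := by
    rintro ⟨⟨k, a⟩, h⟩
    have h1 : (a : ℕ) = a₀ := by
      simp only [lev] at h
      have := toLex.injective h
      exact congrArg Prod.fst this
    apply Subtype.ext
    change (⟨k, ⟨a₀, _⟩⟩ : Idx d) = ⟨k, a⟩
    congr 1
    exact Fin.ext h1.symm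
  right_inv := by
    intro l
    rfl

lemma det_block {A : Matrix (Idx d) (Idx d) F} (hA : Rel A) (k₀ : Fin t) (a₀ : Fin (d k₀)) :
    (A.toSquareBlock lev (lev (⟨k₀, a₀⟩ : Idx d))).det = (diagBlock A (d k₀)).det := by
  rw [← Matrix.det_submatrix_equiv_self (blockEquiv k₀ a₀) (diagBlock A (d k₀))]
  congr 1
  ext ⟨⟨k, a⟩, h⟩ ⟨⟨l, b⟩, h'⟩
  have h1 : (a : ℕ) = a₀ := by
    simp only [lev] at h
    have := toLex.injective h
    exact congrArg Prod.fst this
  have h2 : (b : ℕ) = a₀ := by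
    simp only [lev] at h'
    have := toLex.injective h'
    exact congrArg Prod.fst this
  change A ⟨k, a⟩ ⟨l, b⟩ = ent A k l 0 0
  have h3 : A ⟨k, a⟩ ⟨l, b⟩ = ent A k l a b := (ent_eq A k l a b a.2 b.2).symm
  rw [h3, h1, h2, ent_diag hA k l a₀ (by have := a.2; omega) (by have := b.2; omega)]

/-- invertibility criterion -/
lemma det_ne_zero_iff (hd : ∀ k, 1 ≤ d k) {A : Matrix (Idx d) (Idx d) F} (hA : Rel A) :
    A.det ≠ 0 ↔ ∀ i, (diagBlock A i).det ≠ 0 := by
  rw [(blockTri hA).det, Finset.prod_ne_zero_iff]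
  constructor
  · intro h i
    by_cases hi : IsEmpty (Fib d i)
    · rw [Matrix.det_isEmpty]; exact one_ne_zero
    · rw [not_isEmpty_iff] at hi
      obtain ⟨k₀, rfl⟩ := hi
      have := h (lev (⟨k₀, ⟨0, hd k₀⟩⟩ : Idx d)) (Finset.mem_image_of_mem _ (Finset.mem_univ _))
      rwa [det_block hA] at this
  · intro h x hx
    obtain ⟨⟨k₀, a₀⟩, -, rfl⟩ := Finset.mem_image.1 hx
    rw [det_block hA]
    exact h _

end Cfsg.Agent.Lib.Linalg.JordanCent
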