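import Cfsg.Agent.Lib.Linalg.JordanCent.Basic

set_option autoImplicit false

namespace Cfsg.Agent.Lib.Linalg.JordanCent

open Matrix

lemma card_preimage {X Y : Type*} [AddGroup X] [AddGroup Y] [Finite X] [Finite Y] (π : X →+ Y)
    (hπ : Function.Surjective π) (S : Y → Prop) :
    Nat.card {x // S (π x)} * Nat.card Y = Nat.card {y // S y} * Nat.card X := by
  classical
  haveI := Fintype.ofFinite X
  haveI := Fintype.ofFinite Y
  have hfib : ∀ y, Nat.card {x // π x = y} = Nat.card π.ker := by
    intro y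
    obtain ⟨x₀, rfl⟩ := hπ y
    refine Nat.card_congr ⟨fun x => ⟨-x₀ + x.1, by simp [AddMonoidHom.mem_ker, x.2]⟩,
      fun z => ⟨x₀ + z.1, by simp [AddMonoidHom.mem_ker.1 z.2]⟩, ?_, ?_⟩ <;> intro x <;> simp
  have h1 : Nat.card X = Nat.card Y * Nat.card π.ker := by
    rw [← Nat.card_congr (Equiv.sigmaFiberEquiv π), Nat.card_sigma]
    simp only [hfib, Finset.sum_const, Finset.card_univ, smul_eq_mul, Nat.card_eq_fintype_card (α := Y)]
  have h2 : Nat.card {x // S (π x)} = Nat.card {y // S y} * Nat.card π.ker := by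
    have e : {x // S (π x)} ≃ Σ y : {y // S y}, {x // π x = y.1} :=
      { toFun := fun x => ⟨⟨π x.1, x.2⟩, ⟨x.1, rfl⟩⟩
        invFun := fun p => ⟨p.2.1, by rw [p.2.2]; exact p.1.2⟩
        left_inv := fun x => rfl
        right_inv := by
          rintro ⟨⟨y, hy⟩, ⟨x, hx⟩⟩
          obtain rfl : π x = y := hx
          rfl }
    rw [Nat.card_congr e, Nat.card_sigma]
    simp only [hfib, Finset.sum_const, Finset.card_univ, smul_eq_mul, Nat.card_eq_fintype_card (α := {y // S y})]
  rw [h1, h2]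
  ring

variable {t : ℕ} {d : Fin t → ℕ} {F : Type*} [Field F]

lemma ent_add (A B : Matrix (Idx d) (Idx d) F) (k l : Fin t) (a b : ℕ) :
    ent (A + B) k l a b = ent A k l a b + ent B k l a b := by
  unfold ent
  split_ifs <;> simp

variable (d F) in
/-- the diagonal part of a centraliser element -/
def phi (n : ℕ) : centAdd d F →+ (∀ i : Finset.range n, Matrix (Fib d i) (Fib d i) F) where
  toFun A i := diagBlock A.1 i
  map_zero' := by
    funext i
    ext k l
    simp [diagBlock, ent]
  map_add' A B := by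
    funext i
    ext k l
    simp [diagBlock, ent_add]

open Classical in
/-- parameter with prescribed diagonal part -/
noncomputable def parOf {n : ℕ} (hn : ∀ k, d k < n)
    (y : ∀ i : Finset.range n, Matrix (Fib d i) (Fib d i) F) (p : Par d) : F :=
  if h : d p.1 = d p.2.1 ∧ (p.2.2 : ℕ) = 0 then
    y ⟨d p.1, Finset.mem_range.2 (hn _)⟩ ⟨p.1, rfl⟩ ⟨p.2.1, h.1.symm⟩ else 0

lemma parOf_eq {n : ℕ} (hn : ∀ k, d k < n)
    (y : ∀ i : Finset.range n, Matrix (Fib d i) (Fib d i) F) (i : ℕ) (hi : i ∈ Finset.range n)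
    (k l : Fin t) (hk : d k = i) (hl : d l = i) (h0 : 0 < min (d k) (d l)) :
    parOf hn y ⟨k, l, ⟨0, h0⟩⟩ = y ⟨i, hi⟩ ⟨k, hk⟩ ⟨l, hl⟩ := by
  subst hk
  rw [parOf, dif_pos ⟨hl.symm, rfl⟩]

lemma phi_surj (hd : ∀ k, 1 ≤ d k) {n : ℕ} (hn : ∀ k, d k < n) :
    Function.Surjective (phi d F n) := by
  intro y
  refine ⟨⟨ofPar (parOf hn y), mem_centAdd.2 (rel_ofPar _)⟩, ?_⟩
  funext ⟨i, hi⟩
  ext ⟨k, hk⟩ ⟨l, hl⟩
  have hk2 : d k = i := hk
  have hl2 : d l = i := hl
  change ent (ofPar (parOf hn y)) k l 0 0 = _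
  have hl' : 0 < d l := hd l
  have hk' : 0 < d k := hd k
  rw [ent_ofPar _ k l 0 0 hk' hl', if_pos (by omega)]
  have e : 0 - 0 - (d k - d l) = 0 := by omega
  rw [e, parExt, dif_pos (by omega)]
  exact parOf_eq hn y i hi k l hk2 hl2 _

lemma card_units_fib [Fintype F] (i : ℕ) :
    Nat.card {m : Matrix (Fib d i) (Fib d i) F // m.det ≠ 0} =
      ∏ j : Fin (Finset.univ.filter (fun k : Fin t => d k = i)).card,
        (Fintype.card F ^ (Finset.univ.filter (fun k : Fin t => d k = i)).card - Fintype.card F ^ (j : ℕ)) := by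
  classical
  rw [← Matrix.card_GL_field]
  have hc : Fintype.card (Fib d i) = (Finset.univ.filter (fun k : Fin t => d k = i)).card :=
    Fintype.card_subtype _
  let e : Fib d i ≃ Fin (Finset.univ.filter (fun k : Fin t => d k = i)).card :=
    Fintype.equivFinOfCardEq hc
  refine Nat.card_congr (Equiv.trans (Equiv.subtypeEquiv (Matrix.reindex e e)
    (p := fun m : Matrix (Fib d i) (Fib d i) F => m.det ≠ 0)
    (q := fun m : Matrix (Fin _) (Fin _) F => m.det ≠ 0) ?_) ?_)
  · intro m
    rw [Matrix.det_reindex_self]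
  · exact
      { toFun := fun m => Matrix.GeneralLinearGroup.mkOfDetNeZero m.1 m.2
        invFun := fun g => ⟨g.1, by
          have := (Matrix.isUnit_iff_isUnit_det _).1 g.isUnit
          exact this.ne_zero⟩
        left_inv := fun m => rfl
        right_inv := fun g => Units.ext rfl }

lemma card_Y [Fintype F] (n : ℕ) :
    Nat.card (∀ i : Finset.range n, Matrix (Fib d i) (Fib d i) F) =
      ∏ i ∈ Finset.range n, Fintype.card F ^
        ((Finset.univ.filter (fun k : Fin t => d k = i)).card ^ 2) := by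
  classical
  rw [Nat.card_pi]
  refine Eq.trans ?_ (Finset.prod_coe_sort (Finset.range n) _)
  apply Finset.prod_congr rfl
  rintro ⟨i, hi⟩ -
  have hc : Fintype.card (Fib d i) = (Finset.univ.filter (fun k : Fin t => d k = i)).card :=
    Fintype.card_subtype _
  simp only [Nat.card_eq_fintype_card, Matrix, Fintype.card_fun, Fintype.card_pi, hc]
  simp [pow_mul, sq]

lemma card_S [Fintype F] (n : ℕ) :
    Nat.card {y : ∀ i : Finset.range n, Matrix (Fib d i) (Fib d i) F // ∀ i, (y i).det ≠ 0} =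
      ∏ i ∈ Finset.range n, ∏ j : Fin (Finset.univ.filter (fun k : Fin t => d k = i)).card,
        (Fintype.card F ^ (Finset.univ.filter (fun k : Fin t => d k = i)).card - Fintype.card F ^ (j : ℕ)) := by
  classical
  have e : {y : ∀ i : Finset.range n, Matrix (Fib d i) (Fib d i) F // ∀ i, (y i).det ≠ 0} ≃
      ∀ i : Finset.range n, {m : Matrix (Fib d i) (Fib d i) F // m.det ≠ 0} :=
    Equiv.subtypePiEquivPi (p := fun (i : Finset.range n) (m : Matrix (Fib d i) (Fib d i) F) => m.det ≠ 0)
  rw [Nat.card_congr e, Nat.card_pi]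
  refine Eq.trans ?_ (Finset.prod_coe_sort (Finset.range n) _)
  apply Finset.prod_congr rfl
  rintro ⟨i, hi⟩ -
  exact card_units_fib i

lemma card_cent [Fintype F] :
    Nat.card (centAdd d F) = Fintype.card F ^ (∑ k, ∑ l, min (d k) (d l)) := by
  classical
  rw [Nat.card_congr centEquivPar, Nat.card_eq_fintype_card, Fintype.card_fun, card_par]

lemma card_gl_eq (hd : ∀ k, 1 ≤ d k) {n : ℕ} (hn : ∀ k, d k < n) :
    Nat.card {g : GL (Idx d) F // (g : Matrix (Idx d) (Idx d) F) * Cfsg.jordanTypeMatrix d F =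
        Cfsg.jordanTypeMatrix d F * (g : Matrix (Idx d) (Idx d) F)} =
      Nat.card {A : centAdd d F // (fun y : ∀ i : Finset.range n, Matrix (Fib d i) (Fib d i) F =>
        ∀ i, (y i).det ≠ 0) (phi d F n A)} := by
  classical
  have hbig : ∀ (A : Matrix (Idx d) (Idx d) F) (i : ℕ), n ≤ i → (diagBlock A i).det ≠ 0 := by
    intro A i hi
    haveI : IsEmpty (Fib d i) := ⟨fun k => by have := hn k.1; have := k.2; omega⟩
    rw [Matrix.det_isEmpty]
    exact one_ne_zero
  refine Nat.card_congr
    { toFun := fun g => ⟨⟨g.1.1, g.2⟩, fun i => (det_ne_zero_iff hd (mem_centAdd.1 g.2)).1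
        ((Matrix.isUnit_iff_isUnit_det _).1 g.1.isUnit).ne_zero i⟩
      invFun := fun A => ⟨Matrix.GeneralLinearGroup.mkOfDetNeZero A.1.1
        ((det_ne_zero_iff hd (mem_centAdd.1 A.1.2)).2 (fun i => by
          by_cases hi : i < n
          · exact A.2 ⟨i, Finset.mem_range.2 hi⟩
          · exact hbig _ _ (by omega))), A.1.2⟩
      left_inv := fun g => Subtype.ext (Units.ext rfl)
      right_inv := fun A => Subtype.ext (Subtype.ext rfl) }

lemma sum_fiber {n : ℕ} (hn : ∀ k, d k < n) (f : ℕ → ℕ) :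
    ∑ k, f (d k) = ∑ i ∈ Finset.range n, (Finset.univ.filter (fun k : Fin t => d k = i)).card * f i := by
  rw [← Finset.sum_fiberwise_of_maps_to (s := Finset.univ) (t := Finset.range n) (g := d)
    (fun k _ => Finset.mem_range.2 (hn k))]
  apply Finset.sum_congr rfl
  intro i _
  rw [Finset.sum_congr rfl (g := fun _ => f i)]
  · simp
  · intro k hk
    rw [(Finset.mem_filter.1 hk).2]

lemma exponent_identity (hd : ∀ k, 1 ≤ d k) {n : ℕ} (hn : ∀ k, d k < n) :
    ∑ k, ∑ l, min (d k) (d l) =
      (2 * (∑ i ∈ Finset.range n, ∑ j ∈ Finset.range n, if i < j then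
          i * (Finset.univ.filter (fun k : Fin t => d k = i)).card *
            (Finset.univ.filter (fun k : Fin t => d k = j)).card else 0) +
        ∑ i ∈ Finset.range n, (i - 1) * (Finset.univ.filter (fun k : Fin t => d k = i)).card ^ 2) +
      ∑ i ∈ Finset.range n, (Finset.univ.filter (fun k : Fin t => d k = i)).card ^ 2 := by
  set a : ℕ → ℕ := fun i => (Finset.univ.filter (fun k : Fin t => d k = i)).card with ha
  have ha0 : a 0 = 0 := by
    simp only [ha, Finset.card_eq_zero, Finset.filter_eq_empty_iff]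
    intro k _
    have := hd k
    omega
  have h1 : ∑ k, ∑ l, min (d k) (d l) =
      ∑ i ∈ Finset.range n, ∑ j ∈ Finset.range n, a i * a j * min i j := by
    have : ∀ x : ℕ, ∑ l, min x (d l) = ∑ j ∈ Finset.range n, a j * min x j :=
      fun x => sum_fiber hn (fun y => min x y)
    simp_rw [this]
    rw [sum_fiber hn (fun x => ∑ j ∈ Finset.range n, a j * min x j)]
    apply Finset.sum_congr rfl
    intro i _
    rw [Finset.mul_sum]
    apply Finset.sum_congr rfl
    intro j _
    ring
  rw [h1]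
  have h2 : ∀ i j, a i * a j * min i j =
      (if i < j then i * a i * a j else 0) + (if j < i then j * a j * a i else 0) +
        (if i = j then (i - 1) * a i ^ 2 + a i ^ 2 else 0) := by
    intro i j
    rcases lt_trichotomy i j with h | h | h
    · rw [if_pos h, if_neg (by omega), if_neg (by omega), min_eq_left h.le]
      ring
    · subst h
      simp only [lt_irrefl, if_false, if_true, min_self, zero_add]
      rcases Nat.eq_zero_or_pos i with rfl | hi
      · simp [ha0]
      · obtain ⟨m, rfl⟩ : ∃ m, i = m + 1 := ⟨i - 1, by omega⟩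
        simp only [Nat.add_sub_cancel]
        ring
    · rw [if_neg (by omega), if_pos h, if_neg (by omega), min_eq_right h.le]
      ring
  simp_rw [h2, Finset.sum_add_distrib]
  have h3 : ∑ i ∈ Finset.range n, ∑ j ∈ Finset.range n, (if j < i then j * a j * a i else 0) =
      ∑ i ∈ Finset.range n, ∑ j ∈ Finset.range n, (if i < j then i * a i * a j else 0) :=
    Finset.sum_comm
  have h4 : ∀ i ∈ Finset.range n, ∑ j ∈ Finset.range n,
      (if i = j then (i - 1) * a i ^ 2 + a i ^ 2 else 0) = (i - 1) * a i ^ 2 + a i ^ 2 := by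
    intro i hi
    rw [Finset.sum_ite_eq, if_pos hi]
  rw [h3, Finset.sum_congr rfl h4, Finset.sum_add_distrib]
  ring

/-- the main count -/
theorem main [Fintype F] {q : ℕ} (hF : Fintype.card F = q) (hd : ∀ k, 1 ≤ d k) :
    Nat.card {g : GL ((k : Fin t) × Fin (d k)) F // (g : Matrix ((k : Fin t) × Fin (d k)) ((k : Fin t) × Fin (d k)) F) * Cfsg.jordanTypeMatrix d F = Cfsg.jordanTypeMatrix d F * (g : Matrix ((k : Fin t) × Fin (d k)) ((k : Fin t) × Fin (d k)) F)} = q ^ (2 * (∑ i ∈ Finset.range (Finset.univ.sup d + 1), ∑ j ∈ Finset.range (Finset.univ.sup d + 1), if i < j then i * (Finset.univ.filter (fun k : Fin t => d k = i)).card * (Finset.univ.filter (fun k : Fin t => d k = j)).card else 0) + ∑ i ∈ Finset.range (Finset.univ.sup d + 1), (i - 1) * (Finset.univ.filter (fun k : Fin t => d k = i)).card ^ 2) * ∏ i ∈ Finset.range (Finset.univ.sup d + 1), ∏ j : Fin ((Finset.univ.filter (fun k : Fin t => d k = i)).card), (q ^ (Finset.univ.filter (fun k : Fin t => d k = i)).card - q ^ (j : ℕ))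 := by
  subst hF
  have hn : ∀ k, d k < Finset.univ.sup d + 1 := fun k =>
    Nat.lt_succ_of_le (Finset.le_sup (Finset.mem_univ k))
  have hq : 0 < Fintype.card F := Fintype.card_pos
  have key := card_preimage (phi d F (Finset.univ.sup d + 1)) (phi_surj hd hn)
    (fun y => ∀ i, (y i).det ≠ 0)
  rw [← card_gl_eq hd hn, card_S, card_Y, card_cent, exponent_identity hd hn, pow_add,
    Finset.prod_pow_eq_pow_sum] at key
  refine Nat.eq_of_mul_eq_mul_right (pow_pos hq _) (key.trans ?_)
  ring

end Cfsg.Agent.Lib.Linalg.JordanCent
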