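import Mathlib
import Cfsg.Agent.Lib.Classical.Herm.NormMat
import Cfsg.Agent.Lib.Classical.Herm.TIFrame
import Cfsg.Agent.Lib.Classical.Herm.Unip
import Cfsg.Agent.Lib.Linalg.JordanCent.Count

/-!
# Counting: commutant units versus Hermitian units

For `u ∈ GU`, the map `g ↦ g* g` from the units of the commutant of `u` onto the Hermitian units of
the commutant has fibres the cosets of the centraliser of `u` in `GU`.
-/

set_option autoImplicit false
set_option linter.unusedSectionVars false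
set_option linter.unusedVariables false

open scoped Matrix
open Cfsg
open Cfsg.Agent.Lib.Classical.Herm.Basic Cfsg.Agent.Lib.Classical.Herm.GU
open Cfsg.Agent.Lib.Classical.Herm.NormMat

namespace Cfsg.Agent.Lib.Linalg.JordanCent.GUCount

variable {K : Type*} [Field K] [Fintype K] {q n : ℕ}

/-- the Hermitian units of the commutant -/
abbrev HermC (q : ℕ) (A : Matrix (Fin n) (Fin n) K) :=
  {h : Matrix (Fin n) (Fin n) K // cs q h = h ∧ IsUnit h ∧ A * h = h * A}

/-- the commutant units -/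
abbrev CommU (A : Matrix (Fin n) (Fin n) K) :=
  {g : GL (Fin n) K // (g : Matrix (Fin n) (Fin n) K) * A = A * g}

section
variable (hK : Fintype.card K = q ^ 2)
include hK

lemma isUnit_cs {X : Matrix (Fin n) (Fin n) K} (hX : IsUnit X) : IsUnit (cs q X) := by
  obtain ⟨W, hW⟩ := hX.exists_right_inv
  have h1 : cs q W * cs q X = 1 := by rw [← cs_mul hK, hW, cs_one hK]
  exact isUnit_iff_exists_inv'.mpr ⟨cs q W, h1⟩

lemma commute_cs {A X : Matrix (Fin n) (Fin n) K} (hA : cs q A * A = 1) (hX : X * A = A * X) :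
    A * cs q X = cs q X * A := by
  have hA2 : A * cs q A = 1 := mul_eq_one_comm.mp hA
  have h1 : cs q A * cs q X = cs q X * cs q A := by
    rw [← cs_mul hK, ← cs_mul hK, hX]
  calc A * cs q X = A * cs q X * (cs q A * A) := by rw [hA, mul_one]
    _ = A * (cs q X * cs q A) * A := by simp only [mul_assoc]
    _ = A * (cs q A * cs q X) * A := by rw [h1]
    _ = (A * cs q A) * cs q X * A := by simp only [mul_assoc]
    _ = cs q X * A := by rw [hA2, one_mul]

/-- the norm map -/
noncomputable def normMap (A : Matrix (Fin n) (Fin n) K) (hA : cs q A * A = 1) :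
    CommU A → HermC q A := fun g =>
  ⟨cs q (g.1 : Matrix (Fin n) (Fin n) K) * (g.1 : Matrix (Fin n) (Fin n) K),
    by rw [cs_mul hK, cs_cs hK],
    (isUnit_cs hK g.1.isUnit).mul g.1.isUnit,
    by
      rw [← mul_assoc, commute_cs hK hA g.2, mul_assoc, mul_assoc, g.2]⟩

lemma normMap_surj (A : Matrix (Fin n) (Fin n) K) (hA : cs q A * A = 1) :
    Function.Surjective (normMap hK A hA) := by
  rintro ⟨h, hh, hu, hc⟩
  obtain ⟨y, hy, hyc⟩ := exists_norm_factor hK hh hu
  have hAy : A * y = y * A := hyc A hc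
  have hyu : IsUnit y := by
    obtain ⟨W, hW⟩ := hu.exists_left_inv
    have h1 : (W * cs q y) * y = 1 := by rw [mul_assoc, hy, hW]
    exact isUnit_iff_exists_inv.mpr ⟨W * cs q y, mul_eq_one_comm.mp h1⟩
  obtain ⟨g, rfl⟩ := hyu
  exact ⟨⟨g, hAy.symm⟩, Subtype.ext hy⟩

/-- fibres of the norm map -/
lemma card_fibre (u : GU n K q) (g₀ : CommU ((u : GL (Fin n) K) : Matrix (Fin n) (Fin n) K)) :
    Nat.card {g : CommU ((u : GL (Fin n) K) : Matrix (Fin n) (Fin n) K) //
      cs q (g.1 : Matrix (Fin n) (Fin n) K) * (g.1 : Matrix (Fin n) (Fin n) K) =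
        cs q (g₀.1 : Matrix (Fin n) (Fin n) K) * (g₀.1 : Matrix (Fin n) (Fin n) K)} =
    Nat.card (Subgroup.centralizer ({u} : Set (GU n K q))) := by
  have hcomm : ∀ g : GL (Fin n) K, (g : Matrix (Fin n) (Fin n) K) * ((u : GL (Fin n) K) : Matrix (Fin n) (Fin n) K) =
        ((u : GL (Fin n) K) : Matrix (Fin n) (Fin n) K) * g ↔
      g * (u : GL (Fin n) K) = (u : GL (Fin n) K) * g := by
    intro g
    constructor
    · intro h; exact Units.ext h
    · intro h; exact congrArg (fun x : GL (Fin n) K => (x : Matrix (Fin n) (Fin n) K)) h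
  have hg0c : g₀.1 * (u : GL (Fin n) K) = (u : GL (Fin n) K) * g₀.1 := (hcomm _).1 g₀.2
  have hg0ic : g₀.1⁻¹ * (u : GL (Fin n) K) = (u : GL (Fin n) K) * g₀.1⁻¹ := by
    rw [inv_mul_eq_iff_eq_mul, ← mul_assoc, hg0c, mul_assoc, mul_inv_cancel, mul_one]
  have hcsinv : ∀ (x y : GL (Fin n) K), cs q (x : Matrix (Fin n) (Fin n) K) * (x : Matrix (Fin n) (Fin n) K) =
      cs q (y : Matrix (Fin n) (Fin n) K) * (y : Matrix (Fin n) (Fin n) K) → x * y⁻¹ ∈ Cfsg.GU n K q := by
    intro x y hxy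
    rw [mem_GU_iff_cs hK]
    have hy1 : ((y⁻¹ : GL (Fin n) K) : Matrix (Fin n) (Fin n) K) * (y : Matrix (Fin n) (Fin n) K) = 1 := by
      exact Units.inv_mul y
    have hy2 : (y : Matrix (Fin n) (Fin n) K) * ((y⁻¹ : GL (Fin n) K) : Matrix (Fin n) (Fin n) K) = 1 := by
      exact Units.mul_inv y
    rw [Units.val_mul, cs_mul hK]
    calc cs q ((y⁻¹ : GL (Fin n) K) : Matrix (Fin n) (Fin n) K) * cs q (x : Matrix (Fin n) (Fin n) K) *
          ((x : Matrix (Fin n) (Fin n) K) * ((y⁻¹ : GL (Fin n) K) : Matrix (Fin n) (Fin n) K))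
        = cs q ((y⁻¹ : GL (Fin n) K) : Matrix (Fin n) (Fin n) K) *
          (cs q (x : Matrix (Fin n) (Fin n) K) * (x : Matrix (Fin n) (Fin n) K)) *
            ((y⁻¹ : GL (Fin n) K) : Matrix (Fin n) (Fin n) K) := by simp only [mul_assoc]
      _ = (cs q ((y⁻¹ : GL (Fin n) K) : Matrix (Fin n) (Fin n) K) * cs q (y : Matrix (Fin n) (Fin n) K)) *
            ((y : Matrix (Fin n) (Fin n) K) * ((y⁻¹ : GL (Fin n) K) : Matrix (Fin n) (Fin n) K)) := by
          rw [hxy]; simp only [mul_assoc]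
      _ = 1 := by rw [← cs_mul hK, hy2, cs_one hK, mul_one]
  refine Nat.card_congr
    { toFun := fun g => ⟨⟨g.1.1 * g₀.1⁻¹, hcsinv _ _ g.2⟩, ?_⟩
      invFun := fun z => ⟨⟨z.1.1 * g₀.1, ?_⟩, ?_⟩
      left_inv := ?_
      right_inv := ?_ }
  · rw [Subgroup.mem_centralizer_iff]
    intro x hx
    obtain rfl : x = u := hx
    apply Subtype.ext
    change (x : GL (Fin n) K) * (g.1.1 * g₀.1⁻¹) = (g.1.1 * g₀.1⁻¹) * (x : GL (Fin n) K)
    have hgc := (hcomm _).1 g.1.2
    calc (x : GL (Fin n) K) * (g.1.1 * g₀.1⁻¹) = ((x : GL (Fin n) K) * g.1.1) * g₀.1⁻¹ := by group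
      _ = (g.1.1 * (x : GL (Fin n) K)) * g₀.1⁻¹ := by rw [hgc]
      _ = g.1.1 * ((x : GL (Fin n) K) * g₀.1⁻¹) := by group
      _ = g.1.1 * (g₀.1⁻¹ * (x : GL (Fin n) K)) := by rw [hg0ic]
      _ = _ := by group
  · have hz : (z.1.1 : GL (Fin n) K) * (u : GL (Fin n) K) = (u : GL (Fin n) K) * z.1.1 := by
      have h := z.2
      rw [Subgroup.mem_centralizer_iff] at h
      have h2 := h u rfl
      have h3 := congrArg (fun x : GU n K q => (x : GL (Fin n) K)) h2
      exact h3.symm
    rw [hcomm, mul_assoc, hg0c, ← mul_assoc, hz, mul_assoc]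
  · have hz := (mem_GU_iff_cs hK (z.1.1 : GL (Fin n) K)).1 z.1.2
    change cs q (((z.1.1 : GL (Fin n) K) : Matrix (Fin n) (Fin n) K) * (g₀.1 : Matrix (Fin n) (Fin n) K)) *
      (((z.1.1 : GL (Fin n) K) : Matrix (Fin n) (Fin n) K) * (g₀.1 : Matrix (Fin n) (Fin n) K)) = _
    rw [cs_mul hK]
    calc cs q (g₀.1 : Matrix (Fin n) (Fin n) K) * cs q ((z.1.1 : GL (Fin n) K) : Matrix (Fin n) (Fin n) K) *
          (((z.1.1 : GL (Fin n) K) : Matrix (Fin n) (Fin n) K) * (g₀.1 : Matrix (Fin n) (Fin n) K))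
        = cs q (g₀.1 : Matrix (Fin n) (Fin n) K) *
          (cs q ((z.1.1 : GL (Fin n) K) : Matrix (Fin n) (Fin n) K) * ((z.1.1 : GL (Fin n) K) : Matrix (Fin n) (Fin n) K)) *
            (g₀.1 : Matrix (Fin n) (Fin n) K) := by simp only [mul_assoc]
      _ = _ := by rw [hz, mul_one]
  · intro g
    apply Subtype.ext
    apply Subtype.ext
    change g.1.1 * g₀.1⁻¹ * g₀.1 = g.1.1
    group
  · intro z
    apply Subtype.ext
    apply Subtype.ext
    change z.1.1 * g₀.1 * g₀.1⁻¹ = z.1.1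
    group

/-- the main count -/
theorem card_commU (u : GU n K q) :
    Nat.card (CommU ((u : GL (Fin n) K) : Matrix (Fin n) (Fin n) K)) =
      Nat.card (HermC q ((u : GL (Fin n) K) : Matrix (Fin n) (Fin n) K)) *
        Nat.card (Subgroup.centralizer ({u} : Set (GU n K q))) := by
  classical
  set A : Matrix (Fin n) (Fin n) K := ((u : GL (Fin n) K) : Matrix (Fin n) (Fin n) K) with hAdef
  have hA : cs q A * A = 1 := (mem_GU_iff_cs hK _).1 u.2
  haveI : Finite (Matrix (Fin n) (Fin n) K) := inferInstanceAs (Finite (Fin n → Fin n → K))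
  haveI : Finite (HermC q A) := inferInstance
  haveI : Fintype (HermC q A) := Fintype.ofFinite _
  haveI : Finite (CommU A) := inferInstance
  rw [← Nat.card_congr (Equiv.sigmaFiberEquiv (normMap hK A hA)), Nat.card_sigma]
  have hfib : ∀ h : HermC q A, Nat.card {g : CommU A // normMap hK A hA g = h} =
      Nat.card (Subgroup.centralizer ({u} : Set (GU n K q))) := by
    intro h
    obtain ⟨g₀, rfl⟩ := normMap_surj hK A hA h
    rw [← card_fibre hK u g₀]
    refine Nat.card_congr (Equiv.subtypeEquivRight fun g => ?_)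
    exact Subtype.ext_iff
  simp only [hfib, Finset.sum_const, Finset.card_univ, smul_eq_mul, Nat.card_eq_fintype_card (α := HermC q A)]

end

section FixedCount

variable {W : Type*} [AddCommGroup W] [Module K W] [Finite W]

/-- the `q`-semilinear involution count -/
theorem card_fixed_sq (hK : Fintype.card K = q ^ 2) (τ : W →+ W) (hτ : ∀ w, τ (τ w) = w)
    (hs : ∀ (a : K) (w : W), τ (a • w) = a ^ q • τ w) :
    Nat.card {w : W // τ w = w} ^ 2 = Nat.card W := by
  classical
  obtain ⟨lam, hlam⟩ : ∃ a : K, a + a ^ q = 1 := by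
    exact Cfsg.Agent.Lib.Classical.Herm.TIFrame.exists_trace_one hK
  obtain ⟨s, hs0, hsq⟩ : ∃ s : K, s ≠ 0 ∧ s ^ q = -s := by
    obtain ⟨y, hy⟩ := Cfsg.Agent.Lib.Classical.Herm.Unip.exists_not_fixed hK
    refine ⟨y ^ q - y, sub_ne_zero.2 hy, ?_⟩
    rw [show y ^ q - y = y ^ q + -y by ring, pow_q_add hK, pow_q_neg hK, pow_q_pow_q hK]
    ring
  haveI : Fintype W := Fintype.ofFinite W
  -- the trace map
  have hfixτ : ∀ w : W, τ (w + τ w) = w + τ w := by
    intro w
    rw [map_add, hτ, add_comm]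
  let Fix : AddSubgroup W :=
    { carrier := {w | τ w = w}
      add_mem' := by
        intro a b ha hb
        simp only [Set.mem_ofPred_eq] at ha hb ⊢
        rw [map_add, ha, hb]
      zero_mem' := by simp
      neg_mem' := by
        intro a ha
        simp only [Set.mem_ofPred_eq] at ha ⊢
        rw [map_neg, ha] }
  have hFix : Nat.card {w : W // τ w = w} = Nat.card Fix := rfl
  rw [hFix]
  let T : W →+ Fix :=
    { toFun := fun w => ⟨w + τ w, hfixτ w⟩
      map_zero' := by
        apply Subtype.ext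
        simp
      map_add' := by
        intro x y
        apply Subtype.ext
        simp only [map_add]
        change x + y + (τ x + τ y) = x + τ x + (y + τ y)
        abel }
  have hTsurj : Function.Surjective T := by
    rintro ⟨f, hf⟩
    have hf' : τ f = f := hf
    refine ⟨lam • f, Subtype.ext ?_⟩
    change lam • f + τ (lam • f) = f
    rw [hs, hf', ← add_smul, hlam, one_smul]
  -- the kernel is the anti-fixed part, in bijection with the fixed part
  have hker : Nat.card T.ker = Nat.card Fix := by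
    refine Nat.card_congr
      { toFun := fun w => ⟨s • w.1, ?_⟩
        invFun := fun f => ⟨s⁻¹ • f.1, ?_⟩
        left_inv := ?_
        right_inv := ?_ }
    · have h1 : w.1 + τ w.1 = 0 := congrArg Subtype.val (AddMonoidHom.mem_ker.1 w.2)
      have h2 : τ w.1 = -w.1 := eq_neg_of_add_eq_zero_right h1
      change τ (s • w.1) = s • w.1
      rw [hs, hsq, h2, neg_smul, smul_neg, neg_neg]
    · rw [AddMonoidHom.mem_ker]
      apply Subtype.ext
      have hf' : τ f.1 = f.1 := f.2
      change s⁻¹ • f.1 + τ (s⁻¹ • f.1) = 0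
      rw [hs, hf']
      have h3 : (s⁻¹) ^ q = -s⁻¹ := by
        rw [inv_pow, hsq, inv_neg]
      rw [h3, neg_smul, add_neg_cancel]
    · intro w
      apply Subtype.ext
      change s⁻¹ • s • w.1 = w.1
      rw [smul_smul, inv_mul_cancel₀ hs0, one_smul]
    · intro f
      apply Subtype.ext
      change s • s⁻¹ • f.1 = f.1
      rw [smul_smul, mul_inv_cancel₀ hs0, one_smul]
  have hfib : ∀ y, Nat.card {x // T x = y} = Nat.card T.ker := by
    intro y
    obtain ⟨x₀, rfl⟩ := hTsurj y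
    refine Nat.card_congr ⟨fun x => ⟨-x₀ + x.1, by simp [AddMonoidHom.mem_ker, x.2]⟩,
      fun z => ⟨x₀ + z.1, by simp [AddMonoidHom.mem_ker.1 z.2]⟩, ?_, ?_⟩ <;> intro x <;> simp
  haveI : Fintype Fix := Fintype.ofFinite _
  rw [← Nat.card_congr (Equiv.sigmaFiberEquiv T), Nat.card_sigma]
  simp only [hfib, Finset.sum_const, Finset.card_univ, smul_eq_mul, hker, Nat.card_eq_fintype_card (α := Fix)]
  ring

end FixedCount

end Cfsg.Agent.Lib.Linalg.JordanCent.GUCount
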