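import Mathlib
import Cfsg.Agent.Lib.Linalg.JordanCent.GUCount

/-!
# Invariant sesquilinear forms of a Jordan matrix

`FRel Y` says `Jᵀ Y J = Y`, in entries. The explicit invertible solution `H0` identifies the solutions
with `H0 * C(J)`, and the numbers `pG Y i` (Gram matrices of the top vectors of the blocks of size `i`)
detect invertibility.
-/

set_option autoImplicit false
set_option linter.unusedSectionVars false
set_option linter.unusedVariables false

open scoped Matrix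
open Cfsg

namespace Cfsg.Agent.Lib.Linalg.JordanCent.GUForms

open Cfsg.Agent.Lib.Linalg.JordanCent

variable {t : ℕ} {d : Fin t → ℕ} {K : Type*} [Field K]

lemma nilpT_mul_apply (A : Matrix (Idx d) (Idx d) K) (k l : Fin t) (a : Fin (d k)) (b : Fin (d l)) :
    ((nilp d K)ᵀ * A) ⟨k, a⟩ ⟨l, b⟩ = ent A k l (a + 1) b := by
  simp only [Matrix.mul_apply, nilp, Matrix.transpose_apply, Matrix.of_apply]
  by_cases h : (a : ℕ) + 1 < d k
  · rw [Finset.sum_eq_single (⟨k, ⟨a + 1, h⟩⟩ : Idx d)]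
    · simp [ent, h, b.2]
    · rintro ⟨m, c⟩ - hne
      have : ¬ (m = k ∧ (c : ℕ) = a + 1) := by
        rintro ⟨rfl, h2⟩
        apply hne
        simp [Fin.ext_iff, h2]
      simp [this]
    · simp
  · rw [ent_left_out _ _ _ _ _ (by omega)]
    apply Finset.sum_eq_zero
    rintro ⟨m, c⟩ -
    have : ¬ (m = k ∧ (c : ℕ) = a + 1) := by
      rintro ⟨rfl, h2⟩
      have := c.2
      omega
    simp [this]

lemma ent_nilpT_mul (A : Matrix (Idx d) (Idx d) K) (k l : Fin t) (a b : ℕ) :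
    ent ((nilp d K)ᵀ * A) k l a b = ent A k l (a + 1) b := by
  by_cases h : a < d k ∧ b < d l
  · rw [ent_eq _ _ _ _ _ h.1 h.2]
    exact nilpT_mul_apply A k l ⟨a, h.1⟩ ⟨b, h.2⟩
  · rw [not_and_or] at h
    rcases h with h | h
    · rw [ent_left_out _ _ _ _ _ (by omega), ent_left_out _ _ _ _ _ (by omega)]
    · rw [ent_right_out _ _ _ _ _ (by omega), ent_right_out _ _ _ _ _ (by omega)]

lemma ent_mul_nilp (A : Matrix (Idx d) (Idx d) K) (k l : Fin t) (a b : ℕ) :
    ent (A * nilp d K) k l a b = ent A k l a (b + 1) := by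
  by_cases h : a < d k ∧ b < d l
  · rw [ent_eq _ _ _ _ _ h.1 h.2]
    exact mul_nilp_apply A k l ⟨a, h.1⟩ ⟨b, h.2⟩
  · rw [not_and_or] at h
    rcases h with h | h
    · rw [ent_left_out _ _ _ _ _ (by omega), ent_left_out _ _ _ _ _ (by omega)]
    · rw [ent_right_out _ _ _ _ _ (by omega), ent_right_out _ _ _ _ _ (by omega)]

lemma ent_smul (c : K) (A : Matrix (Idx d) (Idx d) K) (k l : Fin t) (a b : ℕ) :
    ent (c • A) k l a b = c * ent A k l a b := by
  unfold ent
  split_ifs <;> simp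

/-- the invariance relations for a form, in entries -/
structure FRel (Y : Matrix (Idx d) (Idx d) K) : Prop where
  r : ∀ k l a b, a < d k → b < d l →
    ent Y k l (a + 1) b + ent Y k l a (b + 1) + ent Y k l (a + 1) (b + 1) = 0

lemma frel_iff (Y : Matrix (Idx d) (Idx d) K) :
    (Cfsg.jordanTypeMatrix d K)ᵀ * Y * Cfsg.jordanTypeMatrix d K = Y ↔ FRel Y := by
  have hexp : (Cfsg.jordanTypeMatrix d K)ᵀ * Y * Cfsg.jordanTypeMatrix d K =
      Y + ((nilp d K)ᵀ * Y + Y * nilp d K + (nilp d K)ᵀ * Y * nilp d K) := by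
    rw [jordan_eq, Matrix.transpose_add, Matrix.transpose_one]
    noncomm_ring
  rw [hexp]
  constructor
  · intro h
    have h0 : (nilp d K)ᵀ * Y + Y * nilp d K + (nilp d K)ᵀ * Y * nilp d K = 0 := by
      simpa using h
    refine ⟨fun k l a b ha hb => ?_⟩
    have h1 := congrFun (congrFun h0 ⟨k, ⟨a, ha⟩⟩) ⟨l, ⟨b, hb⟩⟩
    simp only [Matrix.add_apply, Matrix.zero_apply] at h1
    rw [← ent_eq ((nilp d K)ᵀ * Y) k l a b ha hb, ← ent_eq (Y * nilp d K) k l a b ha hb,
      ← ent_eq ((nilp d K)ᵀ * Y * nilp d K) k l a b ha hb] at h1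
    simp only [ent_mul_nilp, ent_nilpT_mul] at h1
    exact h1
  · intro h
    have h0 : (nilp d K)ᵀ * Y + Y * nilp d K + (nilp d K)ᵀ * Y * nilp d K = 0 := by
      ext ⟨k, a⟩ ⟨l, b⟩
      simp only [Matrix.add_apply, Matrix.zero_apply]
      rw [← ent_eq ((nilp d K)ᵀ * Y) k l a b a.2 b.2, ← ent_eq (Y * nilp d K) k l a b a.2 b.2,
        ← ent_eq ((nilp d K)ᵀ * Y * nilp d K) k l a b a.2 b.2]
      simp only [ent_mul_nilp, ent_nilpT_mul]
      exact h.r k l a b a.2 b.2
    rw [h0, add_zero]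

section Rel
variable {Y : Matrix (Idx d) (Idx d) K} (hY : FRel Y)
include hY

lemma FRel.zero_of_le (k l : Fin t) : ∀ a b, d k ≤ a + b → ent Y k l a b = 0 := by
  have main : ∀ m a b, d k - a ≤ m → d k ≤ a + b → ent Y k l a b = 0 := by
    intro m
    induction m with
    | zero =>
      intro a b h1 h2
      exact ent_left_out _ _ _ _ _ (by omega)
    | succ m ih =>
      intro a b h1 h2
      by_cases ha : a < d k
      · obtain ⟨b', rfl⟩ : ∃ b', b = b' + 1 := ⟨b - 1, by omega⟩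
        by_cases hb : b' < d l
        · have h3 := hY.r k l a b' ha hb
          rw [ih (a + 1) b' (by omega) (by omega), ih (a + 1) (b' + 1) (by omega) (by omega)] at h3
          simpa using h3
        · exact ent_right_out _ _ _ _ _ (by omega)
      · exact ent_left_out _ _ _ _ _ (by omega)
  intro a b h
  exact main _ a b le_rfl h

lemma FRel.anti {k l : Fin t} {i : ℕ} (hk : d k = i) (hl : d l = i) :
    ∀ a b, a + b + 1 = i → ent Y k l a b = (-1) ^ a * ent Y k l 0 (a + b) := by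
  intro a
  induction a with
  | zero =>
    intro b _
    simp
  | succ a ih =>
    intro b hab
    have h3 := hY.r k l a b (by omega) (by omega)
    rw [hY.zero_of_le k l (a + 1) (b + 1) (by omega), add_zero] at h3
    have h4 : ent Y k l (a + 1) b = - ent Y k l a (b + 1) := eq_neg_of_add_eq_zero_left h3
    rw [h4, ih (b + 1) (by omega), pow_succ, show a + (b + 1) = a + 1 + b by omega]
    ring

end Rel

lemma FRel.mul_rel {Y X : Matrix (Idx d) (Idx d) K} (hY : FRel Y) (hX : Rel X) : FRel (Y * X) := by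
  rw [← frel_iff]
  have h1 := (frel_iff Y).2 hY
  have h2 := (comm_iff X).2 hX
  calc _ = (Cfsg.jordanTypeMatrix d K)ᵀ * Y * (X * Cfsg.jordanTypeMatrix d K) := by
        simp only [mul_assoc]
    _ = (Cfsg.jordanTypeMatrix d K)ᵀ * Y * (Cfsg.jordanTypeMatrix d K * X) := by rw [h2]
    _ = ((Cfsg.jordanTypeMatrix d K)ᵀ * Y * Cfsg.jordanTypeMatrix d K) * X := by
        simp only [mul_assoc]
    _ = Y * X := by rw [h1]

/-- the coefficients of `H0` -/
def hh : ℕ → ℕ → ℤ
  | 0, 0 => 1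
  | 0, _ + 1 => 0
  | _ + 1, 0 => 0
  | r + 1, b + 1 => - hh r b - hh r (b + 1)

lemma hh_lt : ∀ r b, r < b → hh r b = 0 := by
  intro r
  induction r with
  | zero =>
    intro b hb
    obtain ⟨b, rfl⟩ : ∃ c, b = c + 1 := ⟨b - 1, by omega⟩
    simp [hh]
  | succ r ih =>
    intro b hb
    obtain ⟨b, rfl⟩ : ∃ c, b = c + 1 := ⟨b - 1, by omega⟩
    simp only [hh]
    rw [ih b (by omega), ih (b + 1) (by omega)]
    simp

lemma hh_self : ∀ r, hh r r = (-1) ^ r := by
  intro r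
  induction r with
  | zero => simp [hh]
  | succ r ih =>
    simp only [hh]
    rw [ih, hh_lt r (r + 1) (by omega), pow_succ]
    ring

variable (d K) in
/-- the standard invertible form -/
def H0 : Matrix (Idx d) (Idx d) K :=
  Matrix.of fun i j => if i.1 = j.1 then ((hh (d i.1 - 1 - i.2) j.2 : ℤ) : K) else 0

lemma ent_H0_ne {k l : Fin t} (h : k ≠ l) (a b : ℕ) : ent (H0 d K) k l a b = 0 := by
  unfold ent
  split_ifs with h1
  · simp [H0, h]
  · rfl

lemma ent_H0 (k : Fin t) (a b : ℕ) (ha : a < d k) (hb : b < d k) :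
    ent (H0 d K) k k a b = ((hh (d k - 1 - a) b : ℤ) : K) := by
  rw [ent_eq _ _ _ _ _ ha hb]
  simp [H0]

lemma frel_H0 : FRel (H0 d K) := by
  refine ⟨fun k l a b ha hb => ?_⟩
  by_cases hkl : k = l
  · subst hkl
    by_cases h1 : a + 1 < d k
    · by_cases h2 : b + 1 < d k
      · rw [ent_H0 k _ _ h1 hb, ent_H0 k _ _ ha h2, ent_H0 k _ _ h1 h2]
        obtain ⟨r, hr⟩ : ∃ r, d k - 1 - a = r + 1 := ⟨d k - 1 - a - 1, by omega⟩
        have hr' : d k - 1 - (a + 1) = r := by omega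
        rw [hr, hr']
        simp only [hh]
        push_cast
        ring
      · have hb' : b + 1 = d k := by omega
        rw [ent_right_out _ _ _ _ (b + 1) (by omega), ent_right_out _ _ _ _ (b + 1) (by omega),
          ent_H0 k _ _ h1 hb, hh_lt _ _ (by omega)]
        simp
    · rw [ent_left_out _ _ _ (a + 1) _ (by omega), ent_left_out _ _ _ (a + 1) _ (by omega)]
      by_cases h2 : b + 1 < d k
      · rw [ent_H0 k _ _ ha h2, hh_lt _ _ (by omega)]
        simp
      · rw [ent_right_out _ _ _ _ _ (by omega)]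
        simp
  · simp [ent_H0_ne hkl]

lemma det_H0_ne : (H0 d K).det ≠ 0 := by
  intro h0
  obtain ⟨v, hv, hv0⟩ := Matrix.exists_mulVec_eq_zero_iff.2 h0
  apply hv
  have main : ∀ (b : ℕ) (k : Fin t) (hb : b < d k), v ⟨k, ⟨b, hb⟩⟩ = 0 := by
    intro b
    induction b using Nat.strong_induction_on with
    | _ b ih =>
      intro k hb
      have h1 := congrFun hv0 ⟨k, ⟨d k - 1 - b, by omega⟩⟩
      simp only [Matrix.mulVec, dotProduct, Pi.zero_apply, Fintype.sum_sigma] at h1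
      rw [Finset.sum_eq_single k] at h1
      · rw [Finset.sum_eq_single ⟨b, hb⟩] at h1
        · have h2 : d k - 1 - (d k - 1 - b) = b := by omega
          simp only [H0, Matrix.of_apply, if_true, h2, hh_self] at h1
          have hu : (((-1 : ℤ) ^ b : ℤ) : K) ≠ 0 := by
            push_cast
            exact pow_ne_zero _ (neg_ne_zero.2 one_ne_zero)
          exact (mul_eq_zero.1 h1).resolve_left hu
        · intro c _ hc
          have h3 : (c : ℕ) ≠ b := fun e => hc (Fin.ext e)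
          rcases lt_or_gt_of_ne h3 with h4 | h4
          · rw [ih c h4 k c.2, mul_zero]
          · have h2 : d k - 1 - (d k - 1 - b) = b := by omega
            simp only [H0, Matrix.of_apply, if_true, h2]
            rw [hh_lt _ _ h4]
            simp
        · simp
      · intro l _ hl
        apply Finset.sum_eq_zero
        intro c _
        simp [H0, hl.symm]
      · simp
  funext ⟨k, ⟨b, hb⟩⟩
  exact main b k hb

/-- Gram matrix of the top vectors of the blocks of size `i` -/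
def pG (Y : Matrix (Idx d) (Idx d) K) (i : ℕ) : Matrix (Fib d i) (Fib d i) K :=
  Matrix.of fun k l => ent Y k.1 l.1 0 (i - 1)

lemma pG_mul (hd : ∀ k, 1 ≤ d k) {Y X : Matrix (Idx d) (Idx d) K} (hY : FRel Y) (hX : Rel X) (i : ℕ) :
    pG (Y * X) i = pG Y i * diagBlock X i := by
  classical
  ext ⟨k, hk⟩ ⟨l, hl⟩
  have hk' : d k = i := hk
  have hl' : d l = i := hl
  have hi : 1 ≤ i := hk' ▸ hd k
  have hk0 : 0 < d k := by omega
  have hli : i - 1 < d l := by omega
  simp only [pG, Matrix.of_apply, Matrix.mul_apply, diagBlock]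
  rw [ent_eq (Y * X) k l 0 (i - 1) hk0 hli, Matrix.mul_apply, Fintype.sum_sigma]
  have inner : ∀ m : Fin t, ∑ a : Fin (d m), Y ⟨k, ⟨0, hk0⟩⟩ ⟨m, a⟩ * X ⟨m, a⟩ ⟨l, ⟨i - 1, hli⟩⟩ =
      if d m = i then ent Y k m 0 (i - 1) * ent X m l 0 0 else 0 := by
    intro m
    by_cases hm : i - 1 < d m
    · rw [Finset.sum_eq_single ⟨i - 1, hm⟩]
      · rw [← ent_eq Y k m 0 (i - 1) hk0 hm, ← ent_eq X m l (i - 1) (i - 1) hm hli,
          ent_diag hX m l (i - 1) hm hli]
        by_cases hmi : d m = i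
        · rw [if_pos hmi]
        · rw [if_neg hmi, ent_zero_of_lt hX m l 0 (by omega), mul_zero]
      · intro a _ ha
        have h3 : (a : ℕ) ≠ i - 1 := fun e => ha (Fin.ext e)
        rcases lt_or_gt_of_ne h3 with h4 | h4
        · rw [← ent_eq X m l a (i - 1) a.2 hli, ent_of_lt hX m l a (i - 1) h4, mul_zero]
        · rw [← ent_eq Y k m 0 a hk0 a.2, hY.zero_of_le k m 0 a (by omega), zero_mul]
      · simp
    · rw [if_neg (by omega)]
      apply Finset.sum_eq_zero
      intro a _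
      have ha := a.2
      rw [← ent_eq X m l a (i - 1) a.2 hli, ent_of_lt hX m l a (i - 1) (by omega), mul_zero]
  simp only [inner]
  rw [← Finset.sum_filter]
  exact Finset.sum_subtype _ (by simp) (fun m => ent Y k m 0 (i - 1) * ent X m l 0 0)

lemma pG_H0 (hd : ∀ k, 1 ≤ d k) (i : ℕ) : pG (H0 d K) i = (((-1 : K) ^ (i - 1))) • (1 : Matrix _ _ K) := by
  classical
  ext ⟨k, hk⟩ ⟨l, hl⟩
  have hk' : d k = i := hk
  have hl' : d l = i := hl
  have hi : 1 ≤ i := hk' ▸ hd k
  simp only [pG, Matrix.of_apply, Matrix.smul_apply, Matrix.one_apply, smul_eq_mul, Subtype.mk.injEq]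
  by_cases hkl : k = l
  · subst hkl
    rw [ent_H0 k 0 (i - 1) (by omega) (by omega), if_pos rfl, mul_one,
      show d k - 1 - 0 = i - 1 by omega, hh_self]
    push_cast
    rfl
  · rw [ent_H0_ne hkl, if_neg hkl, mul_zero]

lemma isUnit_H0 : IsUnit (H0 d K) := by
  rw [Matrix.isUnit_iff_isUnit_det]
  exact isUnit_iff_ne_zero.2 det_H0_ne

lemma rel_inv_mul {Y : Matrix (Idx d) (Idx d) K} (hY : FRel Y) : Rel ((H0 d K)⁻¹ * Y) := by
  rw [← comm_iff]
  set J := Cfsg.jordanTypeMatrix d K with hJ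
  set W := Jᵀ with hW
  have h1 : W * H0 d K * J = H0 d K := (frel_iff _).2 frel_H0
  have h2 : W * Y * J = Y := (frel_iff _).2 hY
  have hHu : IsUnit (H0 d K).det := (Matrix.isUnit_iff_isUnit_det _).1 isUnit_H0
  have hWu : IsUnit W := by
    rw [Matrix.isUnit_iff_isUnit_det, isUnit_iff_ne_zero]
    intro h0
    have h3 := congrArg Matrix.det h1
    rw [Matrix.det_mul, Matrix.det_mul, h0, zero_mul, zero_mul] at h3
    exact det_H0_ne h3.symm
  have hHH : H0 d K * (H0 d K)⁻¹ = 1 := Matrix.mul_nonsing_inv _ hHu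
  have h4 : H0 d K * ((H0 d K)⁻¹ * Y) = Y := by
    rw [← mul_assoc, hHH, one_mul]
  apply (isUnit_H0 (d := d) (K := K)).mul_right_inj.1
  apply hWu.mul_right_inj.1
  calc W * (H0 d K * ((H0 d K)⁻¹ * Y * J)) = W * ((H0 d K * ((H0 d K)⁻¹ * Y)) * J) := by
        simp only [mul_assoc]
    _ = Y := by rw [h4, ← mul_assoc, h2]
    _ = (W * H0 d K * J) * ((H0 d K)⁻¹ * Y) := by rw [h1, h4]
    _ = W * (H0 d K * (J * ((H0 d K)⁻¹ * Y))) := by simp only [mul_assoc]

lemma H0_mul_inv_mul (Y : Matrix (Idx d) (Idx d) K) : H0 d K * ((H0 d K)⁻¹ * Y) = Y := by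
  have hHu : IsUnit (H0 d K).det := (Matrix.isUnit_iff_isUnit_det _).1 isUnit_H0
  rw [← mul_assoc, Matrix.mul_nonsing_inv _ hHu, one_mul]

lemma inv_mul_H0_mul (X : Matrix (Idx d) (Idx d) K) : (H0 d K)⁻¹ * (H0 d K * X) = X := by
  have hHu : IsUnit (H0 d K).det := (Matrix.isUnit_iff_isUnit_det _).1 isUnit_H0
  rw [← mul_assoc, Matrix.nonsing_inv_mul _ hHu, one_mul]

lemma pG_eq_smul (hd : ∀ k, 1 ≤ d k) {Y : Matrix (Idx d) (Idx d) K} (hY : FRel Y) (i : ℕ) :
    pG Y i = ((-1 : K) ^ (i - 1)) • diagBlock ((H0 d K)⁻¹ * Y) i := by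
  conv_lhs => rw [← H0_mul_inv_mul Y]
  rw [pG_mul hd frel_H0 (rel_inv_mul hY), pG_H0 hd, Matrix.smul_mul, one_mul]

/-- invertibility criterion for forms -/
lemma det_ne_zero_iff_pG (hd : ∀ k, 1 ≤ d k) {Y : Matrix (Idx d) (Idx d) K} (hY : FRel Y) :
    Y.det ≠ 0 ↔ ∀ i, (pG Y i).det ≠ 0 := by
  classical
  have h1 : Y.det ≠ 0 ↔ ((H0 d K)⁻¹ * Y).det ≠ 0 := by
    conv_lhs => rw [← H0_mul_inv_mul Y, Matrix.det_mul]
    simp [det_H0_ne (d := d) (K := K)]
  rw [h1, det_ne_zero_iff hd (rel_inv_mul hY)]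
  refine forall_congr' fun i => ?_
  rw [pG_eq_smul hd hY, Matrix.det_smul]
  have hu : ((-1 : K) ^ (i - 1)) ^ Fintype.card (Fib d i) ≠ 0 :=
    pow_ne_zero _ (pow_ne_zero _ (neg_ne_zero.2 one_ne_zero))
  simp [hu]

/-- prescribing the Gram matrices -/
lemma exists_frel_pG (hd : ∀ k, 1 ≤ d k) {n : ℕ} (hn : ∀ k, d k < n)
    (Q : ∀ i : Finset.range n, Matrix (Fib d i) (Fib d i) K) :
    ∃ Y : Matrix (Idx d) (Idx d) K, FRel Y ∧ ∀ i : Finset.range n, pG Y i = Q i := by
  obtain ⟨X, hX⟩ := phi_surj (F := K) hd hn (fun i => ((-1 : K) ^ ((i : ℕ) - 1)) • Q i)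
  have hXr : Rel X.1 := mem_centAdd.1 X.2
  refine ⟨H0 d K * X.1, frel_H0.mul_rel hXr, fun i => ?_⟩
  rw [pG_mul hd frel_H0 hXr, pG_H0 hd, Matrix.smul_mul, one_mul]
  have h2 : diagBlock X.1 i = ((-1 : K) ^ ((i : ℕ) - 1)) • Q i := congrFun hX i
  rw [h2, smul_smul, ← mul_pow]
  simp

end Cfsg.Agent.Lib.Linalg.JordanCent.GUForms
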