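import Mathlib
import Cfsg.Agent.Lib.Linalg.JordanCent.GUForms

/-!
# Counting the invertible Hermitian invariant forms of a Jordan matrix
-/

set_option autoImplicit false
set_option linter.unusedSectionVars false
set_option linter.unusedVariables false

open scoped Matrix
open Cfsg
open Cfsg.Agent.Lib.Classical.Herm.Basic

namespace Cfsg.Agent.Lib.Linalg.JordanCent.GUHerm

open Cfsg.Agent.Lib.Linalg.JordanCent Cfsg.Agent.Lib.Linalg.JordanCent.GUForms
  Cfsg.Agent.Lib.Linalg.JordanCent.GUCount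

variable {t : ℕ} {d : Fin t → ℕ} {K : Type*} [Field K] [Fintype K] {q : ℕ}

/-- conjugate transpose on an arbitrary index type -/
def cst (q : ℕ) {ι : Type*} (X : Matrix ι ι K) : Matrix ι ι K := (X.map (fun x => x ^ q))ᵀ

section
variable {ι : Type*}

lemma cst_apply (X : Matrix ι ι K) (i j : ι) : cst q X i j = X j i ^ q := rfl

variable (hK : Fintype.card K = q ^ 2)
include hK

lemma cst_add (X Y : Matrix ι ι K) : cst q (X + Y) = cst q X + cst q Y := by
  ext i j
  simp only [cst_apply, Matrix.add_apply]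
  exact pow_q_add hK _ _

lemma cst_smul (a : K) (X : Matrix ι ι K) : cst q (a • X) = a ^ q • cst q X := by
  ext i j
  simp only [cst_apply, Matrix.smul_apply, smul_eq_mul, mul_pow]

lemma cst_cst (X : Matrix ι ι K) : cst q (cst q X) = X := by
  ext i j
  simp only [cst_apply]
  exact pow_q_pow_q hK _

lemma zero_pow_q : (0 : K) ^ q = 0 := by
  have := two_le_q hK
  exact zero_pow (by omega)

lemma ent_cst (Y : Matrix (Idx d) (Idx d) K) (k l : Fin t) (a b : ℕ) :
    ent (cst q Y) k l a b = (ent Y l k b a) ^ q := by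
  by_cases h : a < d k ∧ b < d l
  · rw [ent_eq _ _ _ _ _ h.1 h.2, ent_eq _ _ _ _ _ h.2 h.1]
    rfl
  · rw [not_and_or] at h
    rcases h with h | h
    · rw [ent_left_out _ _ _ _ _ (by omega), ent_right_out _ _ _ _ _ (by omega), zero_pow_q hK]
    · rw [ent_right_out _ _ _ _ _ (by omega), ent_left_out _ _ _ _ _ (by omega), zero_pow_q hK]

lemma frel_cst {Y : Matrix (Idx d) (Idx d) K} (hY : FRel Y) : FRel (cst q Y) := by
  refine ⟨fun k l a b ha hb => ?_⟩
  simp only [ent_cst hK]
  have h := hY.r l k b a hb ha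
  have h2 := congrArg (fun x => x ^ q) h
  simp only [pow_q_add hK, zero_pow_q hK] at h2
  rw [← h2]
  ring

lemma neg_one_pow_pow_q (r : ℕ) : ((-1 : K) ^ r) ^ q = (-1) ^ r := by
  rw [← pow_mul, mul_comm, pow_mul]
  have : (-1 : K) ^ q = -1 := by
    rw [pow_q_neg hK, one_pow]
  rw [this]

lemma pG_cst {Y : Matrix (Idx d) (Idx d) K} (hY : FRel Y) (i : ℕ) (k l : Fib d i) :
    pG (cst q Y) i k l = (-1) ^ (i - 1) * (pG Y i l k) ^ q := by
  obtain ⟨k, hk⟩ := k
  obtain ⟨l, hl⟩ := l
  simp only [pG, Matrix.of_apply]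
  by_cases hi : 1 ≤ i
  · rw [ent_cst hK, hY.anti hl hk (i - 1) 0 (by omega), mul_pow, neg_one_pow_pow_q hK, add_zero]
  · have hk' : d k = i := hk
    have hl' : d l = i := hl
    rw [ent_left_out _ _ _ _ _ (by omega), ent_left_out _ _ _ _ _ (by omega), zero_pow_q hK, mul_zero]

end

/-- the form solutions, as a module -/
def SJ (d : Fin t → ℕ) (K : Type*) [Field K] : Submodule K (Matrix (Idx d) (Idx d) K) where
  carrier := {Y | FRel Y}
  add_mem' := by
    intro A B hA hB
    refine ⟨fun k l a b ha hb => ?_⟩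
    have h1 := hA.r k l a b ha hb
    have h2 := hB.r k l a b ha hb
    simp only [ent_add]
    linear_combination h1 + h2
  zero_mem' := by
    refine ⟨fun k l a b ha hb => ?_⟩
    simp [ent]
  smul_mem' := by
    intro c A hA
    refine ⟨fun k l a b ha hb => ?_⟩
    have h1 := hA.r k l a b ha hb
    simp only [ent_smul]
    linear_combination c * h1

lemma card_SJ : Nat.card (SJ d K) = Nat.card (centAdd d K) := by
  refine Nat.card_congr
    { toFun := fun Y => ⟨(H0 d K)⁻¹ * Y.1, mem_centAdd.2 (rel_inv_mul Y.2)⟩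
      invFun := fun X => ⟨H0 d K * X.1, frel_H0.mul_rel (mem_centAdd.1 X.2)⟩
      left_inv := fun Y => Subtype.ext (H0_mul_inv_mul Y.1)
      right_inv := fun X => Subtype.ext (inv_mul_H0_mul X.1) }

section
variable (hK : Fintype.card K = q ^ 2)
include hK

/-- the Hermitian solutions -/
abbrev FJ (q : ℕ) (d : Fin t → ℕ) (K : Type*) [Field K] [Fintype K]
    (hK : Fintype.card K = q ^ 2) : AddSubgroup (Matrix (Idx d) (Idx d) K) where
  carrier := {Y | FRel Y ∧ cst q Y = Y}
  add_mem' := by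
    rintro A B ⟨hA, hA'⟩ ⟨hB, hB'⟩
    exact ⟨(SJ d K).add_mem hA hB, by rw [cst_add hK, hA', hB']⟩
  zero_mem' := by
    refine ⟨(SJ d K).zero_mem, ?_⟩
    ext i j
    rw [cst_apply]
    exact zero_pow_q hK
  neg_mem' := by
    rintro A ⟨hA, hA'⟩
    refine ⟨(SJ d K).neg_mem hA, ?_⟩
    ext i j
    rw [cst_apply, Matrix.neg_apply, pow_q_neg hK, ← cst_apply, hA']
    rfl

lemma card_FJ : Nat.card (FJ q d K hK) = q ^ (∑ k, ∑ l, min (d k) (d l)) := by
  classical
  let τ : SJ d K →+ SJ d K :=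
    { toFun := fun Y => ⟨cst q Y.1, frel_cst hK Y.2⟩
      map_zero' := by
        apply Subtype.ext
        ext i j
        exact zero_pow_q hK
      map_add' := by
        intro A B
        apply Subtype.ext
        exact cst_add hK A.1 B.1 }
  haveI : Finite (Matrix (Idx d) (Idx d) K) := inferInstanceAs (Finite (Idx d → Idx d → K))
  have h1 := card_fixed_sq hK τ (fun w => Subtype.ext (cst_cst hK w.1))
    (fun a w => Subtype.ext (cst_smul hK a w.1))
  have h2 : Nat.card {w : SJ d K // τ w = w} = Nat.card (FJ q d K hK) := by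
    refine Nat.card_congr
      { toFun := fun w => ⟨w.1.1, w.1.2, congrArg Subtype.val w.2⟩
        invFun := fun Y => ⟨⟨Y.1, Y.2.1⟩, Subtype.ext Y.2.2⟩
        left_inv := fun w => rfl
        right_inv := fun Y => rfl }
  rw [h2, card_SJ, card_cent, hK, ← pow_mul, mul_comm 2, pow_mul] at h1
  exact Nat.pow_left_injective (n := 2) (by norm_num) h1

/-- the Hermitian matrices on a fibre -/
abbrev MH (q : ℕ) (d : Fin t → ℕ) (K : Type*) [Field K] [Fintype K]
    (hK : Fintype.card K = q ^ 2) (i : ℕ) : AddSubgroup (Matrix (Fib d i) (Fib d i) K) where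
  carrier := {P | cst q P = P}
  add_mem' := by
    intro A B hA hB
    simp only [Set.mem_ofPred_eq] at hA hB ⊢
    rw [cst_add hK, hA, hB]
  zero_mem' := by
    ext x y
    rw [cst_apply]
    exact zero_pow_q hK
  neg_mem' := by
    intro A hA
    simp only [Set.mem_ofPred_eq] at hA ⊢
    ext x y
    rw [cst_apply, Matrix.neg_apply, pow_q_neg hK, ← cst_apply, hA]
    rfl

lemma card_MH (i : ℕ) : Nat.card (MH q d K hK i) =
    q ^ ((Finset.univ.filter (fun k : Fin t => d k = i)).card ^ 2) := by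
  classical
  let τ : Matrix (Fib d i) (Fib d i) K →+ Matrix (Fib d i) (Fib d i) K :=
    { toFun := fun P => cst q P
      map_zero' := by
        ext x y
        exact zero_pow_q hK
      map_add' := cst_add hK }
  haveI : Finite (Matrix (Fib d i) (Fib d i) K) := inferInstanceAs (Finite (Fib d i → Fib d i → K))
  have h1 := card_fixed_sq hK τ (cst_cst hK) (cst_smul hK)
  have h2 : Nat.card {w : Matrix (Fib d i) (Fib d i) K // τ w = w} = Nat.card (MH q d K hK i) := rfl
  have hc : Fintype.card (Fib d i) = (Finset.univ.filter (fun k : Fin t => d k = i)).card :=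
    Fintype.card_subtype _
  have h3 : Nat.card (Matrix (Fib d i) (Fib d i) K) =
      (q ^ 2) ^ ((Finset.univ.filter (fun k : Fin t => d k = i)).card ^ 2) := by
    simp only [Nat.card_eq_fintype_card, Matrix, Fintype.card_fun, hc, hK]
    simp [pow_mul, sq]
  rw [h2, h3, ← pow_mul, mul_comm 2, pow_mul] at h1
  exact Nat.pow_left_injective (n := 2) (by norm_num) h1

lemma exists_twist : ∃ s : ℕ → K, ∀ i, s i ≠ 0 ∧ s i ^ q = (-1) ^ (i - 1) * s i := by
  classical
  obtain ⟨y, hy⟩ := Cfsg.Agent.Lib.Classical.Herm.Unip.exists_not_fixed hK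
  have hsq : (y ^ q - y) ^ q = -(y ^ q - y) := by
    rw [show y ^ q - y = y ^ q + -y by ring, pow_q_add hK, pow_q_neg hK, pow_q_pow_q hK]
    ring
  refine ⟨fun i => if Even (i - 1) then 1 else y ^ q - y, fun i => ?_⟩
  by_cases h : Even (i - 1)
  · simp only [if_pos h]
    refine ⟨one_ne_zero, ?_⟩
    rw [h.neg_one_pow]
    simp
  · simp only [if_neg h]
    refine ⟨sub_ne_zero.2 hy, ?_⟩
    rw [hsq, (Nat.not_even_iff_odd.1 h).neg_one_pow]
    ring

end

lemma pG_add (A B : Matrix (Idx d) (Idx d) K) (i : ℕ) : pG (A + B) i = pG A i + pG B i := by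
  ext k l
  simp only [pG, Matrix.of_apply, Matrix.add_apply, ent_add]

lemma pG_zero (i : ℕ) : pG (0 : Matrix (Idx d) (Idx d) K) i = 0 := by
  ext k l
  simp [pG, ent]

lemma pG_smul (c : K) (A : Matrix (Idx d) (Idx d) K) (i : ℕ) : pG (c • A) i = c • pG A i := by
  ext k l
  simp only [pG, Matrix.of_apply, Matrix.smul_apply, ent_smul, smul_eq_mul]

section
variable (hK : Fintype.card K = q ^ 2)
include hK

lemma pG_herm {Y : Matrix (Idx d) (Idx d) K} (hY : FRel Y) (hY' : cst q Y = Y) (i : ℕ) {s : K}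
    (hs : s ^ q = (-1) ^ (i - 1) * s) : cst q (s • pG Y i) = s • pG Y i := by
  rw [cst_smul hK, hs]
  ext k l
  have h1 := pG_cst hK hY i k l
  rw [hY'] at h1
  simp only [Matrix.smul_apply, smul_eq_mul, cst_apply]
  rw [h1]
  ring

/-- the map to the twisted Gram matrices -/
noncomputable def piMap (s : ℕ → K) (hs : ∀ i, s i ≠ 0 ∧ s i ^ q = (-1) ^ (i - 1) * s i) (N : ℕ) :
    FJ q d K hK →+ ∀ i : Finset.range N, MH q d K hK i where
  toFun Y i := ⟨s i • pG Y.1 i, pG_herm hK Y.2.1 Y.2.2 i (hs i).2⟩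
  map_zero' := by
    funext i
    apply Subtype.ext
    change s i • pG (0 : Matrix (Idx d) (Idx d) K) i = 0
    rw [pG_zero, smul_zero]
  map_add' := by
    intro A B
    funext i
    apply Subtype.ext
    change s i • pG (A.1 + B.1) i = s i • pG A.1 i + s i • pG B.1 i
    rw [pG_add, smul_add]

lemma piMap_surj (hd : ∀ k, 1 ≤ d k) {N : ℕ} (hN : ∀ k, d k < N) (s : ℕ → K)
    (hs : ∀ i, s i ≠ 0 ∧ s i ^ q = (-1) ^ (i - 1) * s i) :
    Function.Surjective (piMap (d := d) hK s hs N) := by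
  intro Q
  obtain ⟨lam, hlam⟩ := Cfsg.Agent.Lib.Classical.Herm.TIFrame.exists_trace_one hK
  obtain ⟨Y0, hY0, hpY0⟩ := exists_frel_pG (K := K) hd hN (fun i => (s i)⁻¹ • (Q i).1)
  have hY1 : FRel (lam • Y0) := (SJ d K).smul_mem lam hY0
  have hcY1 : FRel (cst q (lam • Y0)) := frel_cst hK hY1
  have hYmem : lam • Y0 + cst q (lam • Y0) ∈ FJ q d K hK := by
    refine ⟨(SJ d K).add_mem hY1 hcY1, ?_⟩
    rw [cst_add hK, cst_cst hK, add_comm]
  refine ⟨⟨_, hYmem⟩, ?_⟩
  funext i
  apply Subtype.ext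
  change s i • pG (lam • Y0 + cst q (lam • Y0)) i = (Q i).1
  have hQ : cst q (Q i).1 = (Q i).1 := (Q i).2
  have h1 : pG (cst q Y0) i = pG Y0 i := by
    ext k l
    rw [pG_cst hK hY0, hpY0 i]
    simp only [Matrix.smul_apply, smul_eq_mul]
    have h2 : (Q i).1 k l = (Q i).1 l k ^ q := by
      conv_lhs => rw [← hQ]
      rfl
    rw [mul_pow, inv_pow, (hs i).2, ← h2, mul_inv]
    have h3 : ((-1 : K) ^ ((i : ℕ) - 1)) * ((-1 : K) ^ ((i : ℕ) - 1))⁻¹ = 1 :=
      mul_inv_cancel₀ (pow_ne_zero _ (neg_ne_zero.2 one_ne_zero))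
    linear_combination ((s i)⁻¹ * (Q i).1 k l) * h3
  rw [cst_smul hK, pG_add, pG_smul, pG_smul, h1, hpY0 i, ← add_smul, hlam, one_smul, smul_smul,
    mul_inv_cancel₀ (hs i).1, one_smul]

/-- the count of invertible invariant Hermitian forms -/
theorem card_Fx (hd : ∀ k, 1 ≤ d k) {N : ℕ} (hN : ∀ k, d k < N) :
    Nat.card {Y : Matrix (Idx d) (Idx d) K // FRel Y ∧ cst q Y = Y ∧ Y.det ≠ 0} *
        ∏ i ∈ Finset.range N, q ^ ((Finset.univ.filter (fun k : Fin t => d k = i)).card ^ 2) =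
      (∏ i ∈ Finset.range N, Nat.card {y : MH q d K hK i // y.1.det ≠ 0}) *
        q ^ (∑ k, ∑ l, min (d k) (d l)) := by
  classical
  haveI : Finite (Matrix (Idx d) (Idx d) K) := inferInstanceAs (Finite (Idx d → Idx d → K))
  haveI : ∀ i : ℕ, Finite (Matrix (Fib d i) (Fib d i) K) := fun i =>
    inferInstanceAs (Finite (Fib d i → Fib d i → K))
  obtain ⟨s, hs⟩ := exists_twist hK
  have key := card_preimage (piMap (d := d) hK s hs N) (piMap_surj hK hd hN s hs)
    (fun y => ∀ i, (y i).1.det ≠ 0)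
  have h1 : Nat.card {x : FJ q d K hK // ∀ i, (piMap (d := d) hK s hs N x i).1.det ≠ 0} =
      Nat.card {Y : Matrix (Idx d) (Idx d) K // FRel Y ∧ cst q Y = Y ∧ Y.det ≠ 0} := by
    refine Nat.card_congr
      { toFun := fun x => ⟨x.1.1, x.1.2.1, x.1.2.2, (det_ne_zero_iff_pG hd x.1.2.1).2 (fun i => ?_)⟩
        invFun := fun Y => ⟨⟨Y.1, Y.2.1, Y.2.2.1⟩, fun i => ?_⟩
        left_inv := fun x => rfl
        right_inv := fun Y => rfl }
    · by_cases hi : i < N
      · have h2 := x.2 ⟨i, Finset.mem_range.2 hi⟩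
        change (s i • pG x.1.1 i).det ≠ 0 at h2
        rw [Matrix.det_smul] at h2
        exact right_ne_zero_of_mul h2
      · haveI : IsEmpty (Fib d i) := ⟨fun k => by have := hN k.1; have := k.2; omega⟩
        rw [Matrix.det_isEmpty]
        exact one_ne_zero
    · change (s i • pG Y.1 i).det ≠ 0
      rw [Matrix.det_smul]
      exact mul_ne_zero (pow_ne_zero _ (hs i).1) ((det_ne_zero_iff_pG hd Y.2.1).1 Y.2.2.2 i)
  have h2 : Nat.card (∀ i : Finset.range N, MH q d K hK i) =
      ∏ i ∈ Finset.range N, q ^ ((Finset.univ.filter (fun k : Fin t => d k = i)).card ^ 2) := by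
    rw [Nat.card_pi]
    refine Eq.trans ?_ (Finset.prod_coe_sort (Finset.range N) _)
    apply Finset.prod_congr rfl
    rintro ⟨i, hi⟩ -
    exact card_MH hK i
  have h3 : Nat.card {y : ∀ i : Finset.range N, MH q d K hK i // ∀ i, (y i).1.det ≠ 0} =
      ∏ i ∈ Finset.range N, Nat.card {y : MH q d K hK i // y.1.det ≠ 0} := by
    have e : {y : ∀ i : Finset.range N, MH q d K hK i // ∀ i, (y i).1.det ≠ 0} ≃
        ∀ i : Finset.range N, {m : MH q d K hK i // m.1.det ≠ 0} :=
      Equiv.subtypePiEquivPi (p := fun (i : Finset.range N) (m : MH q d K hK i) => m.1.det ≠ 0)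
    rw [Nat.card_congr e, Nat.card_pi]
    exact Finset.prod_coe_sort (Finset.range N) (fun i => Nat.card {y : MH q d K hK i // y.1.det ≠ 0})
  rw [h1, h2, h3, card_FJ hK] at key
  exact key

end

end Cfsg.Agent.Lib.Linalg.JordanCent.GUHerm
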