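import Mathlib
import Cfsg.Agent.Lib.Linalg.JordanCent.GUHerm

/-!
# The order of the centraliser of a unipotent element of `GU_n(q)`
-/

set_option autoImplicit false
set_option linter.unusedSectionVars false
set_option linter.unusedVariables false

open scoped Matrix
open Cfsg
open Cfsg.Agent.Lib.Classical.Herm.Basic Cfsg.Agent.Lib.Classical.Herm.GU
open Cfsg.Agent.Lib.Classical.Herm.NormMat

namespace Cfsg.Agent.Lib.Linalg.JordanCent.GUMain

open Cfsg.Agent.Lib.Linalg.JordanCent Cfsg.Agent.Lib.Linalg.JordanCent.GUForms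
  Cfsg.Agent.Lib.Linalg.JordanCent.GUCount Cfsg.Agent.Lib.Linalg.JordanCent.GUHerm

variable {t : ℕ} {d : Fin t → ℕ} {K : Type*} [Field K] [Fintype K] {q n : ℕ}

section
variable (hK : Fintype.card K = q ^ 2)
include hK

lemma cst_jordan : cst q (Cfsg.jordanTypeMatrix d K) = (Cfsg.jordanTypeMatrix d K)ᵀ := by
  ext x y
  rw [cst_apply, Matrix.transpose_apply, jordan_eq, Matrix.add_apply]
  have hq := two_le_q hK
  by_cases h : y = x
  · subst h
    have : nilp d K y y = 0 := by
      simp [nilp]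
    rw [this, Matrix.one_apply_eq, add_zero, one_pow]
  · rw [Matrix.one_apply_ne h, zero_add]
    simp only [nilp, Matrix.of_apply]
    split_ifs
    · exact one_pow _
    · exact zero_pow (by omega)

/-- counts for the trivial element -/
lemma herm_one_mul (a : ℕ) :
    Nat.card (HermC q (1 : Matrix (Fin a) (Fin a) K)) * Nat.card (GU a K q) = Nat.card (GL (Fin a) K) := by
  have h1 := card_commU hK (1 : GU a K q)
  have h2 : Nat.card (Subgroup.centralizer ({1} : Set (GU a K q))) = Nat.card (GU a K q) := by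
    refine Nat.card_congr
      { toFun := fun x => x.1
        invFun := fun x => ⟨x, by
          rw [Subgroup.mem_centralizer_iff]
          intro y hy
          obtain rfl : y = 1 := hy
          simp⟩
        left_inv := fun x => rfl
        right_inv := fun x => rfl }
  have h3 : Nat.card (CommU (((1 : GU a K q) : GL (Fin a) K) : Matrix (Fin a) (Fin a) K)) =
      Nat.card (GL (Fin a) K) := by
    refine Nat.card_congr
      { toFun := fun x => x.1
        invFun := fun x => ⟨x, by
          change (x : Matrix (Fin a) (Fin a) K) * 1 = 1 * x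
          simp⟩
        left_inv := fun x => rfl
        right_inv := fun x => rfl }
  rw [h3, h2] at h1
  exact h1.symm

/-- Hermitian units on a fibre -/
lemma card_MH_units (i : ℕ) :
    Nat.card {y : MH q d K hK i // y.1.det ≠ 0} * Nat.card (GU (Finset.univ.filter (fun k : Fin t => d k = i)).card K q) =
      Nat.card (GL (Fin (Finset.univ.filter (fun k : Fin t => d k = i)).card) K) := by
  classical
  rw [← herm_one_mul hK]
  congr 1
  have hc : Fintype.card (Fib d i) = (Finset.univ.filter (fun k : Fin t => d k = i)).card :=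
    Fintype.card_subtype _
  let e : Fib d i ≃ Fin (Finset.univ.filter (fun k : Fin t => d k = i)).card :=
    Fintype.equivFinOfCardEq hc
  refine Nat.card_congr
    { toFun := fun y => ⟨Matrix.reindex e e y.1.1, ?_, ?_, ?_⟩
      invFun := fun h => ⟨⟨Matrix.reindex e.symm e.symm h.1, ?_⟩, ?_⟩
      left_inv := ?_
      right_inv := ?_ }
  · ext a b
    have h1 : cst q y.1.1 = y.1.1 := y.1.2
    have h2 := congrFun (congrFun h1 (e.symm a)) (e.symm b)
    simpa [cs_apply, cst_apply] using h2
  · rw [Matrix.isUnit_iff_isUnit_det, Matrix.det_reindex_self, isUnit_iff_ne_zero]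
    exact y.2
  · simp
  · have h1 : cs q h.1 = h.1 := h.2.1
    change cst q _ = _
    ext a b
    have h2 := congrFun (congrFun h1 (e b)) (e a)
    have h3 := congrFun (congrFun h1 (e a)) (e b)
    simpa [cs_apply, cst_apply] using h3
  · have h1 := (Matrix.isUnit_iff_isUnit_det _).1 h.2.2.1
    change (Matrix.reindex e.symm e.symm h.1).det ≠ 0
    rw [Matrix.det_reindex_self]
    exact h1.ne_zero
  · intro y
    apply Subtype.ext
    apply Subtype.ext
    ext a b
    simp
  · intro h
    apply Subtype.ext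
    ext a b
    simp

section Transfer

variable (e : (Idx d) ≃ Fin n) (A : Matrix (Fin n) (Fin n) K)
  (P P' : Matrix (Fin n) (Fin n) K) (hPP' : P * P' = 1) (hP'P : P' * P = 1)
  (hA : cs q A * A = 1)
  (hconj : P * Matrix.reindex e e (Cfsg.jordanTypeMatrix d K) = A * P)
include hK hPP' hP'P hA hconj

/-- Step one: Hermitian units of the commutant versus invariant forms on `Fin n`. -/
lemma card_herm_step1 :
    Nat.card (HermC q A) = Nat.card {Y : Matrix (Fin n) (Fin n) K // cs q Y = Y ∧ IsUnit Y ∧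
      cs q (Matrix.reindex e e (Cfsg.jordanTypeMatrix d K)) * Y * Matrix.reindex e e (Cfsg.jordanTypeMatrix d K) = Y} := by
  set J' := Matrix.reindex e e (Cfsg.jordanTypeMatrix d K) with hJ'
  have hA2 : A * cs q A = 1 := mul_eq_one_comm.mp hA
  have hPu : IsUnit P := isUnit_iff_exists.2 ⟨P', hPP', hP'P⟩
  have hP'u : IsUnit P' := isUnit_iff_exists.2 ⟨P, hP'P, hPP'⟩
  have hcsPP' : cs q P * cs q P' = 1 := by rw [← cs_mul hK, hP'P, cs_one hK]
  have hcsP'P : cs q P' * cs q P = 1 := by rw [← cs_mul hK, hPP', cs_one hK]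
  have hcsconj : cs q J' * cs q P = cs q P * cs q A := by
    rw [← cs_mul hK, hconj, cs_mul hK]
  have hJP' : J' * P' = P' * A := by
    calc J' * P' = (P' * P) * J' * P' := by rw [hP'P, one_mul]
      _ = P' * (P * J') * P' := by simp only [mul_assoc]
      _ = P' * (A * P) * P' := by rw [hconj]
      _ = P' * A * (P * P') := by simp only [mul_assoc]
      _ = P' * A := by rw [hPP', mul_one]
  have hcsJP' : cs q P' * cs q J' = cs q A * cs q P' := by
    rw [← cs_mul hK, hJP', cs_mul hK]
  refine Nat.card_congr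
    { toFun := fun h => ⟨cs q P * h.1 * P, ?_, ?_, ?_⟩
      invFun := fun Y => ⟨cs q P' * Y.1 * P', ?_, ?_, ?_⟩
      left_inv := ?_
      right_inv := ?_ }
  · rw [cs_mul hK, cs_mul hK, cs_cs hK, h.2.1, mul_assoc]
  · exact ((isUnit_cs hK hPu).mul h.2.2.1).mul hPu
  · have hh1 : cs q A * h.1 = h.1 * cs q A := by
      have h2 := congrArg (cs q) h.2.2.2
      rw [cs_mul hK, cs_mul hK, h.2.1] at h2
      exact h2.symm
    calc cs q J' * (cs q P * h.1 * P) * J' = (cs q J' * cs q P) * h.1 * (P * J') := by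
          simp only [mul_assoc]
      _ = cs q P * (cs q A * h.1) * (A * P) := by rw [hcsconj, hconj]; simp only [mul_assoc]
      _ = cs q P * h.1 * (cs q A * A) * P := by rw [hh1]; simp only [mul_assoc]
      _ = cs q P * h.1 * P := by rw [hA, mul_one]
  · rw [cs_mul hK, cs_mul hK, cs_cs hK, Y.2.1, mul_assoc]
  · exact ((isUnit_cs hK hP'u).mul Y.2.2.1).mul hP'u
  · have h1 : cs q A * (cs q P' * Y.1 * P') * A = cs q P' * Y.1 * P' := by
      calc cs q A * (cs q P' * Y.1 * P') * A = (cs q A * cs q P') * Y.1 * (P' * A) := by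
            simp only [mul_assoc]
        _ = cs q P' * (cs q J' * Y.1 * J') * P' := by
            rw [← hcsJP', ← hJP']; simp only [mul_assoc]
        _ = cs q P' * Y.1 * P' := by rw [Y.2.2.2]
    calc A * (cs q P' * Y.1 * P') = A * (cs q A * (cs q P' * Y.1 * P') * A) := by rw [h1]
      _ = (A * cs q A) * ((cs q P' * Y.1 * P') * A) := by simp only [mul_assoc]
      _ = (cs q P' * Y.1 * P') * A := by rw [hA2, one_mul]
  · intro h
    apply Subtype.ext
    calc cs q P' * (cs q P * h.1 * P) * P' = (cs q P' * cs q P) * h.1 * (P * P') := by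
          simp only [mul_assoc]
      _ = h.1 := by rw [hcsP'P, hPP', one_mul, mul_one]
  · intro Y
    apply Subtype.ext
    calc cs q P * (cs q P' * Y.1 * P') * P = (cs q P * cs q P') * Y.1 * (P' * P) := by
          simp only [mul_assoc]
      _ = Y.1 := by rw [hcsPP', hP'P, one_mul, mul_one]

omit hPP' hP'P hA hconj in
/-- Step two: reindexing. -/
lemma card_herm_step2 :
    Nat.card {Y : Matrix (Fin n) (Fin n) K // cs q Y = Y ∧ IsUnit Y ∧
      cs q (Matrix.reindex e e (Cfsg.jordanTypeMatrix d K)) * Y * Matrix.reindex e e (Cfsg.jordanTypeMatrix d K) = Y} =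
    Nat.card {Y : Matrix (Idx d) (Idx d) K // FRel Y ∧ cst q Y = Y ∧ Y.det ≠ 0} := by
  let ρ := Matrix.reindexAlgEquiv K K e
  have hρ : ∀ Y : Matrix (Idx d) (Idx d) K, ρ Y = Matrix.reindex e e Y := fun Y => rfl
  have hcs : ∀ Y : Matrix (Idx d) (Idx d) K, ρ (cst q Y) = cs q (ρ Y) := by
    intro Y
    ext a b
    rfl
  symm
  refine Nat.card_congr (Equiv.subtypeEquiv ρ.toEquiv fun Y => ?_)
  change FRel Y ∧ cst q Y = Y ∧ Y.det ≠ 0 ↔ cs q (ρ Y) = ρ Y ∧ IsUnit (ρ Y) ∧
    cs q (ρ (Cfsg.jordanTypeMatrix d K)) * ρ Y * ρ (Cfsg.jordanTypeMatrix d K) = ρ Y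
  rw [← hcs, ← hcs, cst_jordan hK, ← map_mul, ← map_mul, ρ.injective.eq_iff, ρ.injective.eq_iff, frel_iff]
  have hdet : IsUnit (ρ Y) ↔ Y.det ≠ 0 := by
    rw [Matrix.isUnit_iff_isUnit_det, hρ, Matrix.det_reindex_self, isUnit_iff_ne_zero]
  rw [hdet]
  tauto

/-- Step three: commutant units. -/
lemma card_comm_step :
    Nat.card (CommU A) = Nat.card {g : GL (Idx d) K // (g : Matrix (Idx d) (Idx d) K) * Cfsg.jordanTypeMatrix d K =
      Cfsg.jordanTypeMatrix d K * (g : Matrix (Idx d) (Idx d) K)} := by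
  let ρ := Matrix.reindexAlgEquiv K K e
  let c : (Matrix (Fin n) (Fin n) K)ˣ := ⟨P, P', hPP', hP'P⟩
  let φ : (Matrix (Fin n) (Fin n) K)ˣ ≃* (Matrix (Idx d) (Idx d) K)ˣ :=
    Units.mapEquiv ρ.symm.toMulEquiv
  refine Nat.card_congr (Equiv.subtypeEquiv (((MulAut.conj c⁻¹).toEquiv).trans φ.toEquiv) fun g => ?_)
  have hval : ∀ x : (Matrix (Fin n) (Fin n) K)ˣ, ((φ x : (Matrix (Idx d) (Idx d) K)ˣ) : Matrix (Idx d) (Idx d) K) =
      ρ.symm (x : Matrix (Fin n) (Fin n) K) := fun x => rfl
  have hg : ((((MulAut.conj c⁻¹).toEquiv).trans φ.toEquiv) g : (Matrix (Idx d) (Idx d) K)ˣ) = φ (c⁻¹ * g * c) := by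
    simp
  rw [hg, hval]
  have hJ : ρ.symm (Matrix.reindex e e (Cfsg.jordanTypeMatrix d K)) = Cfsg.jordanTypeMatrix d K :=
    ρ.symm_apply_apply _
  have hx : (((c⁻¹ * g * c : (Matrix (Fin n) (Fin n) K)ˣ)) : Matrix (Fin n) (Fin n) K) =
      P' * (g : Matrix (Fin n) (Fin n) K) * P := rfl
  rw [hx, ← hJ, ← map_mul, ← map_mul, ρ.symm.injective.eq_iff]
  set J' := Matrix.reindex e e (Cfsg.jordanTypeMatrix d K) with hJ'
  have hJP' : J' * P' = P' * A := by
    calc J' * P' = (P' * P) * J' * P' := by rw [hP'P, one_mul]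
      _ = P' * (P * J') * P' := by simp only [mul_assoc]
      _ = P' * (A * P) * P' := by rw [hconj]
      _ = P' * A * (P * P') := by simp only [mul_assoc]
      _ = P' * A := by rw [hPP', mul_one]
  have e1 : P' * (g : Matrix (Fin n) (Fin n) K) * P * J' = P' * ((g : Matrix (Fin n) (Fin n) K) * A) * P := by
    calc P' * (g : Matrix (Fin n) (Fin n) K) * P * J' = P' * (g : Matrix (Fin n) (Fin n) K) * (P * J') := by
          simp only [mul_assoc]
      _ = _ := by rw [hconj]; simp only [mul_assoc]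
  have e2 : J' * (P' * (g : Matrix (Fin n) (Fin n) K) * P) = P' * (A * (g : Matrix (Fin n) (Fin n) K)) * P := by
    calc J' * (P' * (g : Matrix (Fin n) (Fin n) K) * P) = (J' * P') * (g : Matrix (Fin n) (Fin n) K) * P := by
          simp only [mul_assoc]
      _ = _ := by rw [hJP']; simp only [mul_assoc]
  rw [e1, e2]
  constructor
  · intro h
    rw [h]
  · intro h
    have h2 := congrArg (fun X => P * X * P') h
    have cancel : ∀ X : Matrix (Fin n) (Fin n) K, P * (P' * X * P) * P' = X := by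
      intro X
      calc P * (P' * X * P) * P' = (P * P') * X * (P * P') := by simp only [mul_assoc]
        _ = X := by rw [hPP', one_mul, mul_one]
    rwa [cancel, cancel] at h2

end Transfer

/-- The natural-number form of the centraliser order. -/
theorem card_centralizer (hd : ∀ k, 1 ≤ d k) (e : (Idx d) ≃ Fin n) (u : GU n K q)
    (hu : IsConj (Matrix.reindex e e (Cfsg.jordanTypeMatrix d K)) ((u : GL (Fin n) K) : Matrix (Fin n) (Fin n) K)) :
    Nat.card (Subgroup.centralizer ({u} : Set (GU n K q))) =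
      q ^ (2 * (∑ i ∈ Finset.range (Finset.univ.sup d + 1), ∑ j ∈ Finset.range (Finset.univ.sup d + 1), if i < j then
          i * (Finset.univ.filter (fun k : Fin t => d k = i)).card *
            (Finset.univ.filter (fun k : Fin t => d k = j)).card else 0) +
        ∑ i ∈ Finset.range (Finset.univ.sup d + 1), (i - 1) * (Finset.univ.filter (fun k : Fin t => d k = i)).card ^ 2) *
      ∏ i ∈ Finset.range (Finset.univ.sup d + 1), Nat.card (GU (Finset.univ.filter (fun k : Fin t => d k = i)).card K q) := by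
  classical
  obtain ⟨c, hc⟩ := hu
  have hconj : (c : Matrix (Fin n) (Fin n) K) * Matrix.reindex e e (Cfsg.jordanTypeMatrix d K) =
      ((u : GL (Fin n) K) : Matrix (Fin n) (Fin n) K) * c := hc.eq
  have hN : ∀ k, d k < Finset.univ.sup d + 1 := fun k =>
    Nat.lt_succ_of_le (Finset.le_sup (Finset.mem_univ k))
  have hq : 0 < q := by have := two_le_q hK; omega
  have hA : cs q ((u : GL (Fin n) K) : Matrix (Fin n) (Fin n) K) * ((u : GL (Fin n) K) : Matrix (Fin n) (Fin n) K) = 1 :=
    (mem_GU_iff_cs hK _).1 u.2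
  have h1 := card_commU hK u
  rw [card_comm_step hK e _ (c : Matrix (Fin n) (Fin n) K) ((c⁻¹ : (Matrix (Fin n) (Fin n) K)ˣ) : Matrix (Fin n) (Fin n) K)
      c.mul_inv c.inv_mul hA hconj,
    Cfsg.Agent.Lib.Linalg.JordanCent.main hK hd,
    card_herm_step1 hK e _ (c : Matrix (Fin n) (Fin n) K) ((c⁻¹ : (Matrix (Fin n) (Fin n) K)ˣ) : Matrix (Fin n) (Fin n) K)
      c.mul_inv c.inv_mul hA hconj,
    card_herm_step2 hK e] at h1
  have h4 := card_Fx hK hd hN
  rw [exponent_identity hd hN, pow_add (q), ← Finset.prod_pow_eq_pow_sum] at h4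
  set Γ := 2 * (∑ i ∈ Finset.range (Finset.univ.sup d + 1), ∑ j ∈ Finset.range (Finset.univ.sup d + 1), if i < j then
          i * (Finset.univ.filter (fun k : Fin t => d k = i)).card *
            (Finset.univ.filter (fun k : Fin t => d k = j)).card else 0) +
        ∑ i ∈ Finset.range (Finset.univ.sup d + 1), (i - 1) * (Finset.univ.filter (fun k : Fin t => d k = i)).card ^ 2 with hΓ
  set PP := ∏ i ∈ Finset.range (Finset.univ.sup d + 1), q ^ ((Finset.univ.filter (fun k : Fin t => d k = i)).card ^ 2) with hPP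
  have hPPpos : 0 < PP := Finset.prod_pos fun i _ => pow_pos hq _
  set FF := Nat.card {Y : Matrix (Idx d) (Idx d) K // FRel Y ∧ cst q Y = Y ∧ Y.det ≠ 0} with hFF
  set HH := ∏ i ∈ Finset.range (Finset.univ.sup d + 1), Nat.card {y : MH q d K hK i // y.1.det ≠ 0} with hHH
  have h5 : FF = HH * q ^ Γ := by
    apply Nat.eq_of_mul_eq_mul_right hPPpos
    rw [h4]
    ring
  have h6 : ∀ i, ∏ j : Fin (Finset.univ.filter (fun k : Fin t => d k = i)).card,
      ((q ^ 2) ^ (Finset.univ.filter (fun k : Fin t => d k = i)).card - (q ^ 2) ^ (j : ℕ)) =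
      Nat.card {y : MH q d K hK i // y.1.det ≠ 0} * Nat.card (GU (Finset.univ.filter (fun k : Fin t => d k = i)).card K q) := by
    intro i
    rw [card_MH_units hK, Matrix.card_GL_field, hK]
  simp only [h6] at h1
  rw [Finset.prod_mul_distrib, ← hHH, h5] at h1
  have hHHpos : 0 < HH := by
    apply Finset.prod_pos
    intro i _
    have h7 := card_MH_units (d := d) hK i
    have h8 : 0 < Nat.card (GL (Fin (Finset.univ.filter (fun k : Fin t => d k = i)).card) K) := Nat.card_pos
    rw [← h7] at h8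
    exact Nat.pos_of_ne_zero fun h9 => by rw [h9, zero_mul] at h8; omega
  have hqΓ : 0 < q ^ Γ := pow_pos hq _
  apply Nat.eq_of_mul_eq_mul_left (Nat.mul_pos hHHpos hqΓ)
  rw [← h1, ← pow_mul, mul_comm 2, pow_mul, sq]
  ring

end

/-- the integer form of the order of `GU` -/
lemma card_GU_int (hK : Fintype.card K = q ^ 2) (a : ℕ) :
    ((Nat.card (GU a K q) : ℕ) : ℤ) = (q : ℤ) ^ (a * (a - 1) / 2) *
      ∏ j : Fin a, ((q : ℤ) ^ ((j : ℕ) + 1) - (-1) ^ ((j : ℕ) + 1)) := by
  rw [card_GU hK, Nat.cast_mul, Nat.cast_pow, Nat.cast_prod, Finset.prod_range]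
  congr 1
  apply Finset.prod_congr rfl
  intro j _
  have hq := two_le_q hK
  have hq1 : 1 ≤ q ^ ((j : ℕ) + 1) := Nat.one_le_pow _ _ (by omega)
  by_cases h : Even (j : ℕ)
  · rw [if_pos h, (Even.add_one h).neg_one_pow]
    push_cast
    ring
  · rw [if_neg h, Nat.cast_sub hq1, (Nat.not_even_iff_odd.1 h).add_one.neg_one_pow]
    push_cast
    ring

end Cfsg.Agent.Lib.Linalg.JordanCent.GUMain
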