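import Mathlib
import Cfsg.Agent.Lib.Classical.Symp.SympBasis

/-!
# Congruence classes of invertible skew and symmetric matrices over a finite field of odd order
-/

set_option autoImplicit false
set_option linter.unusedSectionVars false
set_option linter.unusedVariables false

open scoped Matrix

namespace Cfsg.Agent.Lib.Linalg.JordanCent.SpBase

variable {F : Type*} [Field F] {κ : Type*} [Fintype κ] [DecidableEq κ]

/-- congruence of matrices -/
def Cong (P P' : Matrix κ κ F) : Prop := ∃ Q : Matrix κ κ F, Q.det ≠ 0 ∧ Qᵀ * P * Q = P'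

lemma Cong.refl (P : Matrix κ κ F) : Cong P P := ⟨1, by simp, by simp⟩

lemma Cong.trans {P P' P'' : Matrix κ κ F} (h : Cong P P') (h' : Cong P' P'') : Cong P P'' := by
  obtain ⟨Q, hQ, rfl⟩ := h
  obtain ⟨Q', hQ', rfl⟩ := h'
  refine ⟨Q * Q', by rw [Matrix.det_mul]; exact mul_ne_zero hQ hQ', ?_⟩
  rw [Matrix.transpose_mul]
  simp only [mul_assoc]

lemma Cong.symm {P P' : Matrix κ κ F} (h : Cong P P') : Cong P' P := by
  obtain ⟨Q, hQ, rfl⟩ := h
  have hu : IsUnit Q.det := isUnit_iff_ne_zero.2 hQ
  refine ⟨Q⁻¹, by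
    rw [Matrix.det_nonsing_inv, Ring.inverse_eq_inv']
    exact inv_ne_zero hQ, ?_⟩
  rw [Matrix.transpose_nonsing_inv]
  have h1 : (Qᵀ)⁻¹ * Qᵀ = 1 := Matrix.nonsing_inv_mul _ (by rwa [Matrix.det_transpose])
  have h2 : Q * Q⁻¹ = 1 := Matrix.mul_nonsing_inv _ hu
  calc (Qᵀ)⁻¹ * (Qᵀ * P * Q) * Q⁻¹ = ((Qᵀ)⁻¹ * Qᵀ) * P * (Q * Q⁻¹) := by simp only [mul_assoc]
    _ = P := by rw [h1, h2, one_mul, mul_one]

lemma Cong.det_eq {P P' : Matrix κ κ F} {Q : Matrix κ κ F} (h : Qᵀ * P * Q = P') :
    P'.det = Q.det ^ 2 * P.det := by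
  rw [← h, Matrix.det_mul, Matrix.det_mul, Matrix.det_transpose]
  ring

/-- An equivalence of `κ → F` carrying one form to another gives a congruence. -/
lemma cong_of_equiv {P P' : Matrix κ κ F} (φ : (κ → F) ≃ₗ[F] (κ → F))
    (h : ∀ u v, φ u ⬝ᵥ (P *ᵥ φ v) = u ⬝ᵥ (P' *ᵥ v)) : Cong P P' := by
  refine ⟨LinearMap.toMatrix' φ.toLinearMap, ?_, ?_⟩
  · rw [LinearMap.det_toMatrix']
    exact (LinearEquiv.isUnit_det' φ).ne_zero
  · ext i j
    have h1 := h (Pi.single i 1) (Pi.single j 1)
    have h2 : ∀ w : κ → F, (LinearMap.toMatrix' φ.toLinearMap) *ᵥ w = φ w := by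
      intro w
      rw [LinearMap.toMatrix'_mulVec]
      rfl
    have h3 : (Pi.single i 1 : κ → F) ⬝ᵥ (P' *ᵥ Pi.single j 1) = P' i j := by simp
    rw [h3, ← h2, ← h2] at h1
    rw [← h1]
    have h5 : ∀ w, LinearMap.toMatrix' φ.toLinearMap *ᵥ Pi.single w (1 : F) =
        fun m => LinearMap.toMatrix' φ.toLinearMap m w := by
      intro w
      ext m
      simp
    rw [h5, h5]
    simp only [Matrix.mul_apply, Matrix.transpose_apply, dotProduct, Matrix.mulVec, Finset.sum_mul,
      Finset.mul_sum]
    rw [Finset.sum_comm]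
    apply Finset.sum_congr rfl
    intro x _
    apply Finset.sum_congr rfl
    intro y _
    ring

section Skew

/-- invertible skew matrices have even size -/
lemma even_card_of_skew (h2 : (2 : F) ≠ 0) {P : Matrix κ κ F} (hP : Pᵀ = -P) (hd : P.det ≠ 0) :
    Even (Fintype.card κ) := by
  by_contra hodd
  have h1 : P.det = - P.det := by
    conv_lhs => rw [← Matrix.det_transpose, hP, Matrix.det_neg,
      (Nat.not_even_iff_odd.1 hodd).neg_one_pow]
    ring
  have h3 : (2 : F) * P.det = 0 := by linear_combination h1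
  exact (mul_ne_zero h2 hd) h3

/-- the bilinear form of a matrix -/
noncomputable def bil (P : Matrix κ κ F) : LinearMap.BilinForm F (κ → F) :=
  Matrix.toLinearMap₂' F P

lemma bil_apply (P : Matrix κ κ F) (x y : κ → F) : bil P x y = x ⬝ᵥ (P *ᵥ y) :=
  Matrix.toLinearMap₂'_apply' _ _ _

lemma bil_isAlt (h2 : (2 : F) ≠ 0) {P : Matrix κ κ F} (hP : Pᵀ = -P) : (bil P).IsAlt := by
  intro x
  have h1 : x ⬝ᵥ (P *ᵥ x) = - (x ⬝ᵥ (P *ᵥ x)) := by
    conv_lhs => rw [Matrix.dotProduct_mulVec, ← Matrix.mulVec_transpose, dotProduct_comm, hP,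
      Matrix.neg_mulVec, dotProduct_neg]
  have h3 : (2 : F) * (x ⬝ᵥ (P *ᵥ x)) = 0 := by linear_combination h1
  rw [bil_apply]
  exact (mul_eq_zero.1 h3).resolve_left h2

lemma bil_nondeg {P : Matrix κ κ F} (hd : P.det ≠ 0) : (bil P).Nondegenerate := by
  have hr : ∀ y : κ → F, (∀ x, bil P x y = 0) → y = 0 := by
    intro y hy
    by_contra hne
    have h1 : P *ᵥ y = 0 := by
      funext i
      have := hy (Pi.single i 1)
      rw [bil_apply] at this
      simpa using this
    exact hd (Matrix.exists_mulVec_eq_zero_iff.1 ⟨y, hne, h1⟩)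
  have hl : ∀ x : κ → F, (∀ y, bil P x y = 0) → x = 0 := by
    intro x hx
    by_contra hne
    have h1 : x ᵥ* P = 0 := by
      funext i
      have := hx (Pi.single i 1)
      rw [bil_apply, Matrix.dotProduct_mulVec] at this
      simpa using this
    exact hd (Matrix.exists_vecMul_eq_zero_iff.1 ⟨x, hne, h1⟩)
  exact ⟨hl, hr⟩

/-- all invertible skew matrices of the same size are congruent -/
theorem cong_skew (h2 : (2 : F) ≠ 0) {P P' : Matrix κ κ F} (hP : Pᵀ = -P) (hd : P.det ≠ 0)
    (hP' : P'ᵀ = -P') (hd' : P'.det ≠ 0) : Cong P P' := by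
  obtain ⟨k, hk⟩ := even_card_of_skew h2 hP hd
  have hdim : Module.finrank F (κ → F) = 2 * k := by
    rw [Module.finrank_fintype_fun_eq_card, hk]
    ring
  obtain ⟨e₁, he₁⟩ := Cfsg.Agent.Lib.Classical.Symp.SympBasis.exists_sympEquiv (bil P)
    (bil_isAlt h2 hP) (bil_nondeg hd) hdim
  obtain ⟨e₂, he₂⟩ := Cfsg.Agent.Lib.Classical.Symp.SympBasis.exists_sympEquiv (bil P')
    (bil_isAlt h2 hP') (bil_nondeg hd') hdim
  refine cong_of_equiv (e₂.trans e₁.symm) fun u v => ?_
  rw [← bil_apply, ← bil_apply, ← he₁, ← he₂]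
  simp

lemma exists_skew (h : Even (Fintype.card κ)) :
    ∃ P : Matrix κ κ F, Pᵀ = -P ∧ P.det ≠ 0 := by
  classical
  obtain ⟨k, hk⟩ := h
  have hc : Fintype.card κ = Fintype.card (Fin k ⊕ Fin k) := by simp [hk]
  let e : κ ≃ Fin k ⊕ Fin k := Fintype.equivOfCardEq hc
  refine ⟨Matrix.reindex e.symm e.symm (Matrix.J (Fin k) F), ?_, ?_⟩
  · ext i j
    have := congrFun (congrFun (Matrix.J_transpose (Fin k) F) (e i)) (e j)
    simpa using this
  · rw [Matrix.det_reindex_self]
    exact (Matrix.isUnit_det_J (Fin k) F).ne_zero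

end Skew

section Symm

variable [Fintype F] [DecidableEq F] (h2 : (2 : F) ≠ 0)
include h2

lemma exists_sum_sq {a b : F} (ha : a ≠ 0) (hb : b ≠ 0) : ∃ x y : F, a * x ^ 2 + b * y ^ 2 = 1 := by
  classical
  have hodd : Fintype.card F % 2 = 1 := by
    obtain ⟨p, hp⟩ := CharP.exists F
    have hp2 : ringChar F ≠ 2 := by
      intro h
      apply h2
      have := ringChar.Nat.cast_ringChar (R := F)
      rw [h] at this
      exact_mod_cast this
    exact FiniteField.odd_card_of_char_ne_two hp2
  have hf : Polynomial.degree (Polynomial.C a * Polynomial.X ^ 2 - Polynomial.C 1 : Polynomial F) = 2 := by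
    have : (Polynomial.C a * Polynomial.X ^ 2 - Polynomial.C 1 : Polynomial F) =
        Polynomial.C a * Polynomial.X ^ 2 + Polynomial.C (-1) * Polynomial.X ^ 0 + 0 := by
      simp [sub_eq_add_neg]
    rw [this]
    compute_degree!
  have hg : Polynomial.degree (Polynomial.C b * Polynomial.X ^ 2 : Polynomial F) = 2 := by
    rw [Polynomial.degree_C_mul_X_pow 2 hb]
    rfl
  obtain ⟨x, y, hxy⟩ := FiniteField.exists_root_sum_quadratic hf hg hodd
  refine ⟨x, y, ?_⟩
  simp only [Polynomial.eval_sub, Polynomial.eval_mul, Polynomial.eval_C, Polynomial.eval_pow,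
    Polynomial.eval_X] at hxy
  linear_combination hxy

omit h2 in
/-- a family of vectors as a change of basis for a diagonal matrix -/
lemma cong_diag_of_family {a b : κ → F} (hb : ∀ i, b i ≠ 0) (v : κ → κ → F)
    (hv : ∀ k l, ∑ m, v k m * a m * v l m = if k = l then b k else 0) :
    Cong (Matrix.diagonal a) (Matrix.diagonal b) := by
  classical
  have hmat : (Matrix.of fun m k => v k m)ᵀ * Matrix.diagonal a * (Matrix.of fun m k => v k m) =
      Matrix.diagonal b := by
    ext k l
    rw [Matrix.mul_apply]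
    simp only [Matrix.mul_diagonal, Matrix.transpose_apply, Matrix.of_apply]
    rw [hv, Matrix.diagonal_apply]
  refine ⟨_, ?_, hmat⟩
  intro h0
  have h1 := Cong.det_eq hmat
  rw [h0] at h1
  simp only [ne_eq, OfNat.ofNat_ne_zero, not_false_eq_true, zero_pow, zero_mul,
    Matrix.det_diagonal] at h1
  exact (Finset.prod_ne_zero_iff.2 fun i _ => hb i) h1

/-- the plane move -/
lemma cong_plane {a : κ → F} (ha : ∀ i, a i ≠ 0) {i j : κ} (hij : i ≠ j) :
    Cong (Matrix.diagonal a)
      (Matrix.diagonal (Function.update (Function.update a i 1) j (a i * a j))) := by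
  classical
  obtain ⟨x, y, hxy⟩ := exists_sum_sq h2 (ha i) (ha j)
  set b := Function.update (Function.update a i 1) j (a i * a j) with hbdef
  have hbi : b i = 1 := by simp [hbdef, Function.update_of_ne hij]
  have hbj : b j = a i * a j := by simp [hbdef]
  have hbk : ∀ k, k ≠ i → k ≠ j → b k = a k := by
    intro k h1 h2
    simp [hbdef, Function.update_of_ne h1, Function.update_of_ne h2]
  have hb : ∀ k, b k ≠ 0 := by
    intro k
    by_cases h1 : k = i
    · rw [h1, hbi]; exact one_ne_zero
    · by_cases h3 : k = j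
      · rw [h3, hbj]; exact mul_ne_zero (ha i) (ha j)
      · rw [hbk k h1 h3]; exact ha k
  -- the columns
  let e : κ → κ → F := fun s => Pi.single s 1
  let v : κ → κ → F := fun k =>
    if k = i then x • e i + y • e j
    else if k = j then (-(a j * y)) • e i + (a i * x) • e j
    else e k
  have hB : ∀ u w : κ → F, ∑ m, u m * a m * w m = u ⬝ᵥ (Matrix.diagonal a *ᵥ w) := by
    intro u w
    simp [dotProduct, Matrix.mulVec_diagonal, mul_assoc]
  have hee : ∀ s t, e s ⬝ᵥ (Matrix.diagonal a *ᵥ e t) = if s = t then a s else 0 := by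
    intro s t
    simp only [e, single_dotProduct, one_mul, Matrix.mulVec_diagonal]
    by_cases h : s = t
    · subst h
      simp
    · simp [h]
  have hvi : v i = x • e i + y • e j := by simp [v]
  have hvj : v j = (-(a j * y)) • e i + (a i * x) • e j := by simp [v, hij.symm]
  have hvk : ∀ k, k ≠ i → k ≠ j → v k = e k := by
    intro k h1 h3
    simp [v, h1, h3]
  refine cong_diag_of_family hb v fun k l => ?_
  rw [hB]
  by_cases hki : k = i
  · subst hki
    by_cases hli : l = k
    · subst hli
      rw [hvi]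
      simp only [Matrix.mulVec_add, Matrix.mulVec_smul, add_dotProduct, smul_dotProduct,
        dotProduct_add, dotProduct_smul, hee, smul_eq_mul, if_true, hij, hij.symm, if_false, hbi]
      linear_combination hxy
    · by_cases hlj : l = j
      · subst hlj
        rw [hvi, hvj]
        simp only [Matrix.mulVec_add, Matrix.mulVec_smul, add_dotProduct, smul_dotProduct,
          dotProduct_add, dotProduct_smul, hee, smul_eq_mul, if_true, hij, Ne.symm hij, if_false]
        ring
      · rw [hvi, hvk l hli hlj]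
        simp only [Matrix.mulVec_add, Matrix.mulVec_smul, add_dotProduct, smul_dotProduct,
          hee, smul_eq_mul, Ne.symm hli, Ne.symm hlj, if_false]
        ring
  · by_cases hkj : k = j
    · subst hkj
      by_cases hli : l = i
      · subst hli
        rw [hvi, hvj]
        simp only [Matrix.mulVec_add, Matrix.mulVec_smul, add_dotProduct, smul_dotProduct,
          dotProduct_add, dotProduct_smul, hee, smul_eq_mul, if_true, hij, Ne.symm hij, if_false]
        ring
      · by_cases hlj : l = k
        · subst hlj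
          rw [hvj]
          simp only [Matrix.mulVec_add, Matrix.mulVec_smul, add_dotProduct, smul_dotProduct,
            dotProduct_add, dotProduct_smul, hee, smul_eq_mul, if_true, hij, Ne.symm hij, if_false, hbj]
          linear_combination (a i * a l) * hxy
        · rw [hvj, hvk l hli hlj]
          simp only [Matrix.mulVec_add, Matrix.mulVec_smul, add_dotProduct, smul_dotProduct,
            hee, smul_eq_mul, Ne.symm hli, Ne.symm hlj, if_false]
          ring
    · rw [hvk k hki hkj]
      by_cases hli : l = i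
      · subst hli
        rw [hvi]
        simp only [Matrix.mulVec_add, Matrix.mulVec_smul, dotProduct_add, dotProduct_smul, hee,
          smul_eq_mul, hki, hkj, if_false]
        ring
      · by_cases hlj : l = j
        · subst hlj
          rw [hvj]
          simp only [Matrix.mulVec_add, Matrix.mulVec_smul, dotProduct_add, dotProduct_smul, hee,
            smul_eq_mul, hki, hkj, if_false]
          ring
        · rw [hvk l hli hlj, hee]
          by_cases hkl : k = l
          · subst hkl
            rw [if_pos rfl, if_pos rfl, hbk k hki hkj]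
          · rw [if_neg hkl, if_neg hkl]

/-- the normal form of a diagonal matrix -/
lemma exists_normal : ∀ (n : ℕ) (a : κ → F), (∀ i, a i ≠ 0) →
    (Finset.univ.filter (fun i => a i ≠ 1)).card ≤ n →
    ∃ b : κ → F, (∀ i, b i ≠ 0) ∧ Cong (Matrix.diagonal a) (Matrix.diagonal b) ∧
      (Finset.univ.filter (fun i => b i ≠ 1)).card ≤ 1 := by
  classical
  intro n
  induction n with
  | zero =>
    intro a ha hc
    exact ⟨a, ha, Cong.refl _, by omega⟩
  | succ n ih =>
    intro a ha hc
    by_cases h1 : (Finset.univ.filter (fun i => a i ≠ 1)).card ≤ 1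
    · exact ⟨a, ha, Cong.refl _, h1⟩
    · obtain ⟨i, hi, j, hj, hij⟩ := Finset.one_lt_card.1 (not_le.1 h1)
      have hi' : a i ≠ 1 := (Finset.mem_filter.1 hi).2
      set a' := Function.update (Function.update a i 1) j (a i * a j) with ha'
      have ha'i : a' i = 1 := by simp [ha', Function.update_of_ne hij]
      have ha'j : a' j = a i * a j := by simp [ha']
      have ha'k : ∀ k, k ≠ i → k ≠ j → a' k = a k := by
        intro k h3 h4
        simp [ha', Function.update_of_ne h3, Function.update_of_ne h4]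
      have hne : ∀ k, a' k ≠ 0 := by
        intro k
        by_cases h3 : k = i
        · rw [h3, ha'i]; exact one_ne_zero
        · by_cases h4 : k = j
          · rw [h4, ha'j]; exact mul_ne_zero (ha i) (ha j)
          · rw [ha'k k h3 h4]; exact ha k
      have hsub : Finset.univ.filter (fun k => a' k ≠ 1) ⊆
          (Finset.univ.filter (fun k => a k ≠ 1)).erase i := by
        intro k hk
        have hk' : a' k ≠ 1 := (Finset.mem_filter.1 hk).2
        have hki : k ≠ i := by
          rintro rfl
          exact hk' ha'i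
        refine Finset.mem_erase.2 ⟨hki, Finset.mem_filter.2 ⟨Finset.mem_univ _, ?_⟩⟩
        by_cases hkj : k = j
        · rw [hkj]
          exact (Finset.mem_filter.1 hj).2
        · rwa [ha'k k hki hkj] at hk'
      have hcard : (Finset.univ.filter (fun k => a' k ≠ 1)).card ≤ n := by
        have h3 := Finset.card_le_card hsub
        rw [Finset.card_erase_of_mem hi] at h3
        omega
      obtain ⟨b, hb, hcb, hb1⟩ := ih a' hne hcard
      exact ⟨b, hb, (cong_plane h2 ha hij).trans hcb, hb1⟩

omit h2 in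
lemma cong_diag_scale {b c r : κ → F} (hr : ∀ i, r i ≠ 0) (h : ∀ i, c i = r i ^ 2 * b i) :
    Cong (Matrix.diagonal b) (Matrix.diagonal c) := by
  refine ⟨Matrix.diagonal r, ?_, ?_⟩
  · rw [Matrix.det_diagonal]
    exact Finset.prod_ne_zero_iff.2 fun i _ => hr i
  · rw [Matrix.diagonal_transpose, Matrix.diagonal_mul_diagonal, Matrix.diagonal_mul_diagonal]
    congr 1
    funext i
    rw [h i]
    ring

lemma cong_normal {b c : κ → F} (hb : ∀ i, b i ≠ 0) (hc : ∀ i, c i ≠ 0)
    (hb1 : (Finset.univ.filter (fun i => b i ≠ 1)).card ≤ 1)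
    (hc1 : (Finset.univ.filter (fun i => c i ≠ 1)).card ≤ 1)
    (hs : IsSquare ((∏ i, b i) * ∏ i, c i)) :
    Cong (Matrix.diagonal b) (Matrix.diagonal c) := by
  classical
  cases isEmpty_or_nonempty κ with
  | inl hκ =>
    have : Matrix.diagonal b = Matrix.diagonal c := Subsingleton.elim _ _
    rw [this]
    exact Cong.refl _
  | inr hκ =>
    have hsupp : ∀ a : κ → F, (Finset.univ.filter (fun i => a i ≠ 1)).card ≤ 1 →
        ∃ i₀, ∀ i, i ≠ i₀ → a i = 1 := by
      intro a ha
      rw [Finset.card_le_one_iff_subset_singleton] at ha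
      obtain ⟨i₀, hi₀⟩ := ha
      refine ⟨i₀, fun i hi => ?_⟩
      by_contra hne
      have := hi₀ (Finset.mem_filter.2 ⟨Finset.mem_univ i, hne⟩)
      exact hi (Finset.mem_singleton.1 this)
    obtain ⟨i₀, hi₀⟩ := hsupp b hb1
    obtain ⟨j₀, hj₀⟩ := hsupp c hc1
    have hprod : ∀ a : κ → F, ∀ i₁, (∀ i, i ≠ i₁ → a i = 1) → ∏ i, a i = a i₁ := by
      intro a i₁ ha
      exact Finset.prod_eq_single i₁ (fun i _ hi => ha i hi) (by simp)
    -- move `b` to have support at `j₀`
    obtain ⟨b', hb', hcong, hb'1, hb'j⟩ : ∃ b' : κ → F, (∀ i, b' i ≠ 0) ∧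
        Cong (Matrix.diagonal b) (Matrix.diagonal b') ∧ (∀ i, i ≠ j₀ → b' i = 1) ∧ b' j₀ = b i₀ := by
      by_cases hij : i₀ = j₀
      · subst hij
        exact ⟨b, hb, Cong.refl _, hi₀, rfl⟩
      · have hbj : b j₀ = 1 := hi₀ j₀ (Ne.symm hij)
        refine ⟨Function.update (Function.update b i₀ 1) j₀ (b i₀ * b j₀), ?_, cong_plane h2 hb hij, ?_, ?_⟩
        · intro i
          by_cases h3 : i = j₀
          · subst h3
            simp only [Function.update_self]
            exact mul_ne_zero (hb _) (hb _)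
          · rw [Function.update_of_ne h3]
            by_cases h4 : i = i₀
            · subst h4
              simp
            · rw [Function.update_of_ne h4]
              exact hb i
        · intro i hi
          rw [Function.update_of_ne hi]
          by_cases h4 : i = i₀
          · subst h4
            simp
          · rw [Function.update_of_ne h4]
            exact hi₀ i h4
        · simp only [Function.update_self]
          rw [hbj, mul_one]
    rw [hprod b i₀ hi₀, hprod c j₀ hj₀] at hs
    obtain ⟨w, hw⟩ := hs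
    have hw0 : w ≠ 0 := by
      rintro rfl
      have := mul_ne_zero (hb i₀) (hc j₀)
      rw [hw, mul_zero] at this
      exact this rfl
    refine hcong.trans (cong_diag_scale (r := Function.update 1 j₀ (w / b i₀)) ?_ ?_)
    · intro i
      by_cases h3 : i = j₀
      · subst h3
        simp only [Function.update_self]
        exact div_ne_zero hw0 (hb _)
      · rw [Function.update_of_ne h3]
        simp
    · intro i
      by_cases h3 : i = j₀
      · subst h3
        simp only [Function.update_self]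
        rw [hb'j]
        have := hb i₀
        field_simp
        linear_combination hw
      · rw [Function.update_of_ne h3, hj₀ i h3, hb'1 i h3]
        simp

/-- diagonalisation -/
lemma exists_diag {P : Matrix κ κ F} (hP : Pᵀ = P) (hd : P.det ≠ 0) :
    ∃ a : κ → F, (∀ i, a i ≠ 0) ∧ Cong P (Matrix.diagonal a) := by
  classical
  haveI : Invertible (2 : F) := invertibleOfNonzero h2
  have hsymm : LinearMap.IsSymm (bil P) := by
    refine ⟨fun x y => ?_⟩
    simp only [RingHom.id_apply, bil_apply]
    rw [Matrix.dotProduct_mulVec, ← Matrix.mulVec_transpose, dotProduct_comm, hP]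
  obtain ⟨v₀, hv₀⟩ := LinearMap.BilinForm.exists_orthogonal_basis hsymm
  have hfin : Module.finrank F (κ → F) = Fintype.card κ := Module.finrank_fintype_fun_eq_card F
  let e : Fin (Module.finrank F (κ → F)) ≃ κ := (finCongr hfin).trans (Fintype.equivFin κ).symm
  let v := v₀.reindex e
  have hv : ∀ k l, k ≠ l → bil P (v k) (v l) = 0 := by
    intro k l hkl
    have hne : e.symm k ≠ e.symm l := fun h => hkl (e.symm.injective h)
    have := hv₀ hne
    simpa [v, Module.Basis.reindex_apply] using this
  let Q : Matrix κ κ F := Matrix.of fun m k => v k m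
  have hQ : Q.det ≠ 0 := by
    have h1 : Q = (Pi.basisFun F κ).toMatrix v := by
      ext m k
      simp [Q, Module.Basis.toMatrix_apply]
    rw [h1, ← Module.Basis.det_apply]
    exact ((Pi.basisFun F κ).isUnit_det v).ne_zero
  have hQP : Qᵀ * P * Q = Matrix.diagonal fun k => bil P (v k) (v k) := by
    ext k l
    have h3 : (Qᵀ * P * Q) k l = bil P (v k) (v l) := by
      rw [bil_apply]
      simp only [Matrix.mul_apply, Matrix.transpose_apply, dotProduct, Matrix.mulVec, Finset.sum_mul,
        Finset.mul_sum, Q, Matrix.of_apply]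
      rw [Finset.sum_comm]
      apply Finset.sum_congr rfl
      intro x _
      apply Finset.sum_congr rfl
      intro y _
      ring
    rw [h3, Matrix.diagonal_apply]
    by_cases hkl : k = l
    · subst hkl
      simp
    · rw [if_neg hkl, hv k l hkl]
  refine ⟨_, fun i => ?_, ⟨Q, hQ, hQP⟩⟩
  have h4 := Cong.det_eq hQP
  rw [Matrix.det_diagonal] at h4
  have h5 : (∏ k, bil P (v k) (v k)) ≠ 0 := by
    rw [h4]
    exact mul_ne_zero (pow_ne_zero _ hQ) hd
  exact Finset.prod_ne_zero_iff.1 h5 i (Finset.mem_univ i)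

/-- classification of invertible symmetric matrices -/
theorem cong_symm {P P' : Matrix κ κ F} (hP : Pᵀ = P) (hd : P.det ≠ 0) (hP' : P'ᵀ = P')
    (hd' : P'.det ≠ 0) (hs : IsSquare (P.det * P'.det)) : Cong P P' := by
  obtain ⟨a, ha, hPa⟩ := exists_diag h2 hP hd
  obtain ⟨a', ha', hPa'⟩ := exists_diag h2 hP' hd'
  obtain ⟨b, hb, hab, hb1⟩ := exists_normal h2 _ a ha le_rfl
  obtain ⟨c, hc, hac, hc1⟩ := exists_normal h2 _ a' ha' le_rfl
  have h1 := hPa.trans hab
  have h3 := hPa'.trans hac
  refine h1.trans ((cong_normal h2 hb hc hb1 hc1 ?_).trans h3.symm)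
  obtain ⟨Q, hQ, hQe⟩ := h1
  obtain ⟨Q', hQ', hQe'⟩ := h3
  have e1 := Cong.det_eq hQe
  have e2 := Cong.det_eq hQe'
  rw [Matrix.det_diagonal] at e1 e2
  rw [e1, e2]
  obtain ⟨w, hw⟩ := hs
  refine ⟨Q.det * Q'.det * w, ?_⟩
  linear_combination (Q.det ^ 2 * Q'.det ^ 2) * hw

omit h2 in
lemma exists_symm_det [Nonempty κ] {δ : F} (hδ : δ ≠ 0) :
    ∃ P : Matrix κ κ F, Pᵀ = P ∧ P.det = δ := by
  classical
  obtain ⟨i₀⟩ := ‹Nonempty κ›
  refine ⟨Matrix.diagonal (Function.update 1 i₀ δ), Matrix.diagonal_transpose _, ?_⟩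
  rw [Matrix.det_diagonal, Finset.prod_eq_single i₀]
  · simp
  · intro i _ hi
    rw [Function.update_of_ne hi]
    simp
  · simp

end Symm

end Cfsg.Agent.Lib.Linalg.JordanCent.SpBase
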