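import Mathlib
import Cfsg.Agent.Lib.Linalg.JordanCent.GUForms
import Cfsg.Agent.Lib.Linalg.JordanCent.SpBase
import Cfsg.Agent.Lib.Linalg.Unipotent

/-!
# Invariant skew forms of a Jordan matrix up to congruence by the commutant
-/

set_option autoImplicit false
set_option linter.unusedSectionVars false
set_option linter.unusedVariables false

open scoped Matrix

namespace Cfsg.Agent.Lib.Linalg.JordanCent.SpForms

open Cfsg.Agent.Lib.Linalg.JordanCent Cfsg.Agent.Lib.Linalg.JordanCent.GUForms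
  Cfsg.Agent.Lib.Linalg.JordanCent.SpBase

variable {t : ℕ} {d : Fin t → ℕ} {F : Type*} [Field F]

lemma ent_transpose (Y : Matrix (Idx d) (Idx d) F) (k l : Fin t) (a b : ℕ) :
    ent Yᵀ k l a b = ent Y l k b a := by
  by_cases h : a < d k ∧ b < d l
  · rw [ent_eq _ _ _ _ _ h.1 h.2, ent_eq _ _ _ _ _ h.2 h.1]
    rfl
  · rw [not_and_or] at h
    rcases h with h | h
    · rw [ent_left_out _ _ _ _ _ (by omega), ent_right_out _ _ _ _ _ (by omega)]
    · rw [ent_right_out _ _ _ _ _ (by omega), ent_left_out _ _ _ _ _ (by omega)]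

lemma frel_transpose {Y : Matrix (Idx d) (Idx d) F} (hY : FRel Y) : FRel Yᵀ := by
  refine ⟨fun k l a b ha hb => ?_⟩
  simp only [ent_transpose]
  linear_combination hY.r l k b a hb ha

lemma pG_transpose {Y : Matrix (Idx d) (Idx d) F} (hY : FRel Y) (i : ℕ) (k l : Fib d i) :
    pG Yᵀ i k l = (-1) ^ (i - 1) * pG Y i l k := by
  obtain ⟨k, hk⟩ := k
  obtain ⟨l, hl⟩ := l
  simp only [pG, Matrix.of_apply]
  by_cases hi : 1 ≤ i
  · rw [ent_transpose, hY.anti hl hk (i - 1) 0 (by omega), add_zero]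
  · have hk' : d k = i := hk
    have hl' : d l = i := hl
    rw [ent_left_out _ _ _ _ _ (by omega), ent_left_out _ _ _ _ _ (by omega), mul_zero]

lemma frel_tmul {Y X : Matrix (Idx d) (Idx d) F} (hY : FRel Y) (hX : Rel X) : FRel (Xᵀ * Y) := by
  rw [← frel_iff]
  have h1 := (frel_iff Y).2 hY
  have h2 := (comm_iff X).2 hX
  have h3 : (Cfsg.jordanTypeMatrix d F)ᵀ * Xᵀ = Xᵀ * (Cfsg.jordanTypeMatrix d F)ᵀ := by
    rw [← Matrix.transpose_mul, ← Matrix.transpose_mul, h2]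
  calc (Cfsg.jordanTypeMatrix d F)ᵀ * (Xᵀ * Y) * Cfsg.jordanTypeMatrix d F
      = ((Cfsg.jordanTypeMatrix d F)ᵀ * Xᵀ) * Y * Cfsg.jordanTypeMatrix d F := by
        simp only [mul_assoc]
    _ = Xᵀ * ((Cfsg.jordanTypeMatrix d F)ᵀ * Y * Cfsg.jordanTypeMatrix d F) := by
        rw [h3]; simp only [mul_assoc]
    _ = Xᵀ * Y := by rw [h1]

lemma pG_tmul (hd : ∀ k, 1 ≤ d k) {Y X : Matrix (Idx d) (Idx d) F} (hY : FRel Y) (hX : Rel X) (i : ℕ) :
    pG (Xᵀ * Y) i = (diagBlock X i)ᵀ * pG Y i := by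
  ext k l
  have hZ := frel_tmul hY hX
  have h1 := pG_transpose hZ i l k
  rw [Matrix.transpose_mul, Matrix.transpose_transpose, pG_mul hd (frel_transpose hY) hX, Matrix.mul_apply] at h1
  simp only [pG_transpose hY] at h1
  have hu : ((-1 : F) ^ (i - 1)) * ((-1 : F) ^ (i - 1)) = 1 := by
    rw [← mul_pow]
    simp
  rw [Matrix.mul_apply]
  simp only [Matrix.transpose_apply]
  have h2 : ∑ m, diagBlock X i m k * pG Y i m l =
      (-1) ^ (i - 1) * ∑ m, (-1) ^ (i - 1) * pG Y i m l * diagBlock X i m k := by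
    rw [Finset.mul_sum]
    apply Finset.sum_congr rfl
    intro m _
    linear_combination (-(diagBlock X i m k * pG Y i m l)) * hu
  rw [h2, h1]
  linear_combination (-(pG (Xᵀ * Y) i k l)) * hu

lemma pG_cong (hd : ∀ k, 1 ≤ d k) {Y X : Matrix (Idx d) (Idx d) F} (hY : FRel Y) (hX : Rel X) (i : ℕ) :
    pG (Xᵀ * Y * X) i = (diagBlock X i)ᵀ * pG Y i * diagBlock X i := by
  rw [pG_mul hd (frel_tmul hY hX) hX, pG_tmul hd hY hX]

lemma rel_inv_mul' {Y Y' : Matrix (Idx d) (Idx d) F} (hY : FRel Y) (hdet : Y.det ≠ 0) (hY' : FRel Y') :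
    Rel (Y⁻¹ * Y') := by
  rw [← comm_iff]
  set J := Cfsg.jordanTypeMatrix d F with hJ
  set W := Jᵀ with hW
  have h1 : W * Y * J = Y := (frel_iff _).2 hY
  have h2 : W * Y' * J = Y' := (frel_iff _).2 hY'
  have hHu : IsUnit Y.det := isUnit_iff_ne_zero.2 hdet
  have hYu : IsUnit Y := (Matrix.isUnit_iff_isUnit_det _).2 hHu
  have hWu : IsUnit W := by
    rw [Matrix.isUnit_iff_isUnit_det, isUnit_iff_ne_zero]
    intro h0
    have h3 := congrArg Matrix.det h1
    rw [Matrix.det_mul, Matrix.det_mul, h0, zero_mul, zero_mul] at h3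
    exact hdet h3.symm
  have hHH : Y * Y⁻¹ = 1 := Matrix.mul_nonsing_inv _ hHu
  have h4 : Y * (Y⁻¹ * Y') = Y' := by
    rw [← mul_assoc, hHH, one_mul]
  apply hYu.mul_right_inj.1
  apply hWu.mul_right_inj.1
  calc W * (Y * (Y⁻¹ * Y' * J)) = W * ((Y * (Y⁻¹ * Y')) * J) := by
        simp only [mul_assoc]
    _ = Y' := by rw [h4, ← mul_assoc, h2]
    _ = (W * Y * J) * (Y⁻¹ * Y') := by rw [h1, h4]
    _ = W * (Y * (J * (Y⁻¹ * Y'))) := by simp only [mul_assoc]

lemma rel_mul {X X' : Matrix (Idx d) (Idx d) F} (hX : Rel X) (hX' : Rel X') : Rel (X * X') := by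
  rw [← comm_iff] at *
  rw [mul_assoc, hX', ← mul_assoc, hX, mul_assoc]

lemma rel_sub_one {X : Matrix (Idx d) (Idx d) F} (hX : Rel X) : Rel (X - 1) := by
  rw [← comm_iff] at *
  rw [sub_mul, mul_sub, hX, one_mul, mul_one]

lemma rel_pow {X : Matrix (Idx d) (Idx d) F} (hX : Rel X) (n : ℕ) : Rel (X ^ n) := by
  rw [← comm_iff] at *
  exact (Commute.pow_left (hX : Commute X _) n)

lemma diagBlock_sub_one (hd : ∀ k, 1 ≤ d k) (X : Matrix (Idx d) (Idx d) F) (i : ℕ) :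
    diagBlock (X - 1) i = diagBlock X i - 1 := by
  classical
  ext ⟨k, hk⟩ ⟨l, hl⟩
  have hk' : d k = i := hk
  have hl' : d l = i := hl
  have hk0 : 0 < d k := hd k
  have hl0 : 0 < d l := hd l
  simp only [diagBlock, Matrix.of_apply, Matrix.sub_apply]
  rw [ent_eq _ _ _ _ _ hk0 hl0, ent_eq _ _ _ _ _ hk0 hl0, Matrix.sub_apply]
  congr 1
  by_cases hkl : k = l
  · subst hkl
    simp
  · rw [Matrix.one_apply_ne, Matrix.one_apply_ne]
    · intro h
      exact hkl (congrArg Subtype.val h)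
    · intro h
      exact hkl (congrArg Sigma.fst h)

/-- A matrix whose nonzero entries strictly increase a weight is nilpotent. -/
lemma isNilpotent_of_weight {ι : Type*} [Fintype ι] [DecidableEq ι] (x : Matrix ι ι F) (w : ι → ℕ)
    (hw : ∀ i j, x i j ≠ 0 → w j < w i) : IsNilpotent x := by
  classical
  have main : ∀ n i j, (x ^ n) i j ≠ 0 → w j + n ≤ w i := by
    intro n
    induction n with
    | zero =>
      intro i j h
      rw [pow_zero] at h
      by_cases hij : i = j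
      · subst hij
        simp
      · exact absurd (Matrix.one_apply_ne hij) h
    | succ n ih =>
      intro i j h
      rw [pow_succ, Matrix.mul_apply] at h
      obtain ⟨m, -, hm⟩ := Finset.exists_ne_zero_of_sum_ne_zero h
      have h1 := ih i m (left_ne_zero_of_mul hm)
      have h2 := hw m j (right_ne_zero_of_mul hm)
      omega
  refine ⟨Finset.univ.sup w + 1, ?_⟩
  ext i j
  by_contra h
  have h1 := main _ i j h
  have h2 : w i ≤ Finset.univ.sup w := Finset.le_sup (Finset.mem_univ i)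
  simp only [Matrix.zero_apply] at *
  omega

lemma isNilpotent_of_diag_zero {x : Matrix (Idx d) (Idx d) F} (hd : ∀ k, 1 ≤ d k) (hx : Rel x)
    (h0 : ∀ i, diagBlock x i = 0) : IsNilpotent x := by
  have hM : ∀ k, d k < Finset.univ.sup d + 1 := fun k =>
    Nat.lt_succ_of_le (Finset.le_sup (Finset.mem_univ k))
  set M := Finset.univ.sup d + 1 with hMdef
  refine isNilpotent_of_weight x (fun i => (i.2 : ℕ) * M + (M - d i.1)) ?_
  rintro ⟨k, a⟩ ⟨l, b⟩ h
  have ha := a.2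
  have hb := b.2
  rw [← ent_eq x k l a b a.2 b.2] at h
  simp only
  have hkM := hM k
  have hlM := hM l
  have hab : (b : ℕ) ≤ a := by
    by_contra hlt
    exact h (ent_of_lt hx k l a b (by omega))
  rcases Nat.lt_or_ge (b : ℕ) a with hlt | hge
  · have : ((b : ℕ) + 1) * M ≤ (a : ℕ) * M := Nat.mul_le_mul_right _ hlt
    have e : ((b : ℕ) + 1) * M = b * M + M := by ring
    omega
  · have hEq : (a : ℕ) = b := le_antisymm hge hab
    have h3 := h
    rw [hEq, ent_diag hx k l b (by omega) (by omega)] at h3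
    have hne : d k ≠ d l := by
      intro he
      have h4 := congrFun (congrFun (h0 (d l)) ⟨k, he⟩) ⟨l, rfl⟩
      exact h3 h4
    have hlt2 : d k < d l := by
      by_contra hnot
      exact h3 (ent_zero_of_lt hx k l 0 (by omega))
    rw [hEq]
    omega

section Lift

variable (p : ℕ) [Fact p.Prime] [CharP F p] (hp : p ≠ 2)
include hp

/-- Skew forms with the same Gram matrices are congruent under the commutant. -/
theorem exists_cong_of_pG_eq (hd : ∀ k, 1 ≤ d k) {Y Y' : Matrix (Idx d) (Idx d) F} (hY : FRel Y)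
    (hs : Yᵀ = -Y) (hdet : Y.det ≠ 0) (hY' : FRel Y') (hs' : Y'ᵀ = -Y') (hdet' : Y'.det ≠ 0)
    (h : ∀ i, pG Y i = pG Y' i) :
    ∃ g : Matrix (Idx d) (Idx d) F, Rel g ∧ g.det ≠ 0 ∧ gᵀ * Y * g = Y' := by
  classical
  have hpp : p.Prime := Fact.out
  set Z := Y⁻¹ * Y' with hZdef
  have hZ : Rel Z := rel_inv_mul' hY hdet hY'
  have hHu : IsUnit Y.det := isUnit_iff_ne_zero.2 hdet
  have hYZ : Y * Z = Y' := by
    rw [hZdef, ← mul_assoc, Matrix.mul_nonsing_inv _ hHu, one_mul]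
  have hdetZ : Z.det ≠ 0 := by
    intro h0
    apply hdet'
    rw [← hYZ, Matrix.det_mul, h0, mul_zero]
  have hdiag : ∀ i, diagBlock Z i = 1 := by
    intro i
    have h1 : pG Y' i = pG Y i * diagBlock Z i := by
      rw [← hYZ, pG_mul hd hY hZ]
    rw [← h i] at h1
    have hdP : (pG Y i).det ≠ 0 := (det_ne_zero_iff_pG hd hY).1 hdet i
    have hu : IsUnit (pG Y i) := (Matrix.isUnit_iff_isUnit_det _).2 (isUnit_iff_ne_zero.2 hdP)
    have h3 : pG Y i * diagBlock Z i = pG Y i * 1 := by rw [← h1, mul_one]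
    exact hu.mul_right_inj.1 h3
  obtain ⟨K, hK⟩ := isNilpotent_of_diag_zero hd (rel_sub_one hZ)
    (fun i => by rw [diagBlock_sub_one hd, hdiag, sub_self])
  have hpow : Z ^ (p ^ K) = 1 := by
    have h1 := Cfsg.Agent.Lib.Linalg.Unipotent.sub_one_pow_char_pow p Z K
    have hle : K ≤ p ^ K := (Nat.lt_pow_self hpp.one_lt).le
    rw [pow_eq_zero_of_le hle hK] at h1
    exact (sub_eq_zero.1 h1.symm)
  have hodd : Odd (p ^ K) := (hpp.odd_of_ne_two hp).pow
  obtain ⟨r, hr⟩ := hodd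
  have hsq : Z ^ (r + 1) * Z ^ (r + 1) = Z := by
    rw [← pow_add, show r + 1 + (r + 1) = p ^ K + 1 by omega, pow_succ, hpow, one_mul]
  have hZT : Zᵀ * Y = Y * Z := by
    have h1 : (Yᵀ)⁻¹ * Y = -1 := by
      have h2 : (Yᵀ)⁻¹ * Yᵀ = 1 := Matrix.nonsing_inv_mul _ (by rw [Matrix.det_transpose]; exact hHu)
      rw [hs] at h2 ⊢
      rw [mul_neg] at h2
      rw [← h2, neg_neg]
    rw [hYZ, hZdef, Matrix.transpose_mul, hs', Matrix.transpose_nonsing_inv, hs]
    rw [hs] at h1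
    rw [mul_assoc, h1]
    simp
  have hpowT : ∀ n, (Z ^ n)ᵀ * Y = Y * Z ^ n := by
    intro n
    induction n with
    | zero => simp
    | succ n ih =>
      rw [pow_succ, Matrix.transpose_mul, mul_assoc, ih, ← mul_assoc, hZT, mul_assoc,
        (Commute.pow_left (Commute.refl Z) n).eq]
  refine ⟨Z ^ (r + 1), rel_pow hZ _, ?_, ?_⟩
  · rw [Matrix.det_pow]
    exact pow_ne_zero _ hdetZ
  · rw [hpowT, mul_assoc, hsq, hYZ]

theorem exists_cong_of_pG_cong (hd : ∀ k, 1 ≤ d k) {N : ℕ} (hN : ∀ k, d k < N)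
    {Y Y' : Matrix (Idx d) (Idx d) F} (hY : FRel Y)
    (hs : Yᵀ = -Y) (hdet : Y.det ≠ 0) (hY' : FRel Y') (hs' : Y'ᵀ = -Y') (hdet' : Y'.det ≠ 0)
    (Q : ∀ i : Finset.range N, Matrix (Fib d i) (Fib d i) F) (hQ : ∀ i, (Q i).det ≠ 0)
    (hPQ : ∀ i : Finset.range N, (Q i)ᵀ * pG Y i * Q i = pG Y' i) :
    ∃ x : Matrix (Idx d) (Idx d) F, Rel x ∧ x.det ≠ 0 ∧ xᵀ * Y * x = Y' := by
  classical
  obtain ⟨X, hX⟩ := phi_surj (F := F) hd hN Q
  have hXr : Rel X.1 := mem_centAdd.1 X.2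
  have hdiagX : ∀ i : Finset.range N, diagBlock X.1 i = Q i := fun i => congrFun hX i
  have hempty : ∀ i, N ≤ i → IsEmpty (Fib d i) := fun i hi =>
    ⟨fun k => by have := hN k.1; have := k.2; omega⟩
  have hdetX : X.1.det ≠ 0 := by
    rw [det_ne_zero_iff hd hXr]
    intro i
    by_cases hi : i < N
    · rw [hdiagX ⟨i, Finset.mem_range.2 hi⟩]
      exact hQ _
    · haveI := hempty i (by omega)
      rw [Matrix.det_isEmpty]
      exact one_ne_zero
  have hY2 : FRel (X.1ᵀ * Y * X.1) := (frel_tmul hY hXr).mul_rel hXr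
  have hs2 : (X.1ᵀ * Y * X.1)ᵀ = -(X.1ᵀ * Y * X.1) := by
    rw [Matrix.transpose_mul, Matrix.transpose_mul, Matrix.transpose_transpose, hs]
    simp only [mul_neg, neg_mul, mul_assoc]
  have hdet2 : (X.1ᵀ * Y * X.1).det ≠ 0 := by
    rw [Matrix.det_mul, Matrix.det_mul, Matrix.det_transpose]
    exact mul_ne_zero (mul_ne_zero hdetX hdet) hdetX
  obtain ⟨g, hg, hgd, hgY⟩ := exists_cong_of_pG_eq p hp hd hY2 hs2 hdet2 hY' hs' hdet' (by
    intro i
    by_cases hi : i < N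
    · rw [pG_cong hd hY hXr, hdiagX ⟨i, Finset.mem_range.2 hi⟩]
      exact hPQ ⟨i, Finset.mem_range.2 hi⟩
    · haveI := hempty i (by omega)
      exact Subsingleton.elim _ _)
  refine ⟨X.1 * g, rel_mul hXr hg, ?_, ?_⟩
  · rw [Matrix.det_mul]
    exact mul_ne_zero hdetX hgd
  · rw [Matrix.transpose_mul, ← hgY]
    simp only [mul_assoc]

end Lift

lemma pG_skew (hd : ∀ k, 1 ≤ d k) {Y : Matrix (Idx d) (Idx d) F} (hY : FRel Y) (hs : Yᵀ = -Y) (i : ℕ) :
    (pG Y i)ᵀ = ((-1 : F) ^ i) • pG Y i := by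
  ext k l
  have h1 := pG_transpose hY i l k
  have h2 : pG Yᵀ i l k = - pG Y i l k := by
    rw [hs]
    simp only [pG, Matrix.of_apply]
    unfold ent
    split_ifs <;> simp
  rw [h2] at h1
  simp only [Matrix.transpose_apply, Matrix.smul_apply, smul_eq_mul]
  have hi : 1 ≤ i := by
    have : d k.1 = i := k.2
    have := hd k.1
    omega
  obtain ⟨c, rfl⟩ : ∃ c, i = c + 1 := ⟨i - 1, by omega⟩
  simp only [Nat.add_sub_cancel] at h1
  have hu : ((-1 : F) ^ c) * ((-1 : F) ^ c) = 1 := by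
    rw [← mul_pow]
    simp
  rw [pow_succ]
  linear_combination -h1

/-- lifting Gram matrices to a skew form -/
theorem exists_skew_lift (h2 : (2 : F) ≠ 0) (hd : ∀ k, 1 ≤ d k) {N : ℕ} (hN : ∀ k, d k < N)
    (P : ∀ i : Finset.range N, Matrix (Fib d i) (Fib d i) F)
    (hP : ∀ i : Finset.range N, (P i)ᵀ = ((-1 : F) ^ (i : ℕ)) • P i) :
    ∃ Y : Matrix (Idx d) (Idx d) F, FRel Y ∧ Yᵀ = -Y ∧ ∀ i : Finset.range N, pG Y i = P i := by
  obtain ⟨Y0, hY0, hpY0⟩ := exists_frel_pG (K := F) hd hN P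
  have hc : (2 : F)⁻¹ + (2 : F)⁻¹ = 1 := by
    rw [← two_mul, mul_inv_cancel₀ h2]
  refine ⟨(2 : F)⁻¹ • (Y0 + (-Y0ᵀ)), ?_, ?_, ?_⟩
  · refine ⟨fun k l a b ha hb => ?_⟩
    have e : ∀ x y, ent ((2 : F)⁻¹ • (Y0 + -Y0ᵀ)) k l x y =
        (2 : F)⁻¹ * (ent Y0 k l x y - ent Y0ᵀ k l x y) := by
      intro x y
      rw [ent_smul, ent_add, sub_eq_add_neg]
      congr 2
      unfold ent
      split_ifs <;> simp
    simp only [e]
    have h3 := hY0.r k l a b ha hb
    have h4 := (frel_transpose hY0).r k l a b ha hb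
    linear_combination (2 : F)⁻¹ * h3 - (2 : F)⁻¹ * h4
  · rw [Matrix.transpose_smul, Matrix.transpose_add, Matrix.transpose_neg, Matrix.transpose_transpose]
    ext x y
    simp only [Matrix.smul_apply, Matrix.add_apply, Matrix.neg_apply, smul_eq_mul]
    ring
  · intro i
    ext k l
    have e : pG ((2 : F)⁻¹ • (Y0 + -Y0ᵀ)) i k l =
        (2 : F)⁻¹ * (pG Y0 i k l - pG Y0ᵀ i k l) := by
      simp only [pG, Matrix.of_apply]
      rw [ent_smul, ent_add, sub_eq_add_neg]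
      congr 2
      unfold ent
      split_ifs <;> simp
    rw [e, pG_transpose hY0, hpY0 i]
    have h5 := congrFun (congrFun (hP i) k) l
    simp only [Matrix.transpose_apply, Matrix.smul_apply, smul_eq_mul] at h5
    have hi : 1 ≤ (i : ℕ) := by
      have : d k.1 = i := k.2
      have := hd k.1
      omega
    obtain ⟨c, hc2⟩ : ∃ c, (i : ℕ) = c + 1 := ⟨i - 1, by omega⟩
    rw [h5, hc2]
    simp only [Nat.add_sub_cancel]
    have hu : ((-1 : F) ^ c) * ((-1 : F) ^ c) = 1 := by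
      rw [← mul_pow]
      simp
    rw [pow_succ]
    linear_combination (P i k l) * hc + ((2 : F)⁻¹ * P i k l) * hu

end Cfsg.Agent.Lib.Linalg.JordanCent.SpForms
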