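import Mathlib
import Cfsg.Agent.Lib.Linalg.JordanCent.SpForms

/-!
# Conjugacy classes of `Sp` within a `GL`-class of unipotent elements
-/

set_option autoImplicit false
set_option linter.unusedSectionVars false
set_option linter.unusedVariables false

open scoped Matrix

namespace Cfsg.Agent.Lib.Linalg.JordanCent.SpClasses

open Cfsg.Agent.Lib.Linalg.JordanCent Cfsg.Agent.Lib.Linalg.JordanCent.GUForms
  Cfsg.Agent.Lib.Linalg.JordanCent.SpBase Cfsg.Agent.Lib.Linalg.JordanCent.SpForms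

variable {t m : ℕ} {d : Fin t → ℕ} {F : Type*} [Field F]

/-- the reindexing algebra equivalence -/
noncomputable abbrev rho (F : Type*) [Field F] (e : Idx d ≃ (Fin m ⊕ Fin m)) :
    Matrix (Idx d) (Idx d) F ≃ₐ[F] Matrix (Fin m ⊕ Fin m) (Fin m ⊕ Fin m) F :=
  Matrix.reindexAlgEquiv F F e

lemma rho_transpose (e : Idx d ≃ (Fin m ⊕ Fin m)) (X : Matrix (Idx d) (Idx d) F) :
    rho F e Xᵀ = (rho F e X)ᵀ := by
  ext a b
  rfl

lemma rho_symm_transpose (e : Idx d ≃ (Fin m ⊕ Fin m)) (X : Matrix (Fin m ⊕ Fin m) (Fin m ⊕ Fin m) F) :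
    (rho F e).symm Xᵀ = ((rho F e).symm X)ᵀ := by
  ext a b
  rfl

lemma det_rho_symm (e : Idx d ≃ (Fin m ⊕ Fin m)) (X : Matrix (Fin m ⊕ Fin m) (Fin m ⊕ Fin m) F) :
    ((rho F e).symm X).det = X.det := by
  change (Matrix.reindex e.symm e.symm X).det = X.det
  rw [Matrix.det_reindex_self]

/-- the standard form on the Jordan index -/
noncomputable def OmH (F : Type*) [Field F] (e : Idx d ≃ (Fin m ⊕ Fin m)) : Matrix (Idx d) (Idx d) F :=
  (rho F e).symm (Matrix.J (Fin m) F)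

lemma OmH_skew (e : Idx d ≃ (Fin m ⊕ Fin m)) : (OmH F e)ᵀ = - OmH F e := by
  rw [OmH, ← rho_symm_transpose, Matrix.J_transpose, map_neg]

lemma OmH_det (e : Idx d ≃ (Fin m ⊕ Fin m)) : (OmH F e).det ≠ 0 := by
  rw [OmH, det_rho_symm]
  exact (Matrix.isUnit_det_J (Fin m) F).ne_zero

/-- the matrix of an element of `Sp` in Jordan coordinates -/
noncomputable def ghat (e : Idx d ≃ (Fin m ⊕ Fin m)) (g : Matrix.symplecticGroup (Fin m) F) :
    Matrix (Idx d) (Idx d) F := (rho F e).symm g.1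

lemma ghat_form (e : Idx d ≃ (Fin m ⊕ Fin m)) (g : Matrix.symplecticGroup (Fin m) F) :
    (ghat e g)ᵀ * OmH F e * ghat e g = OmH F e := by
  have h := SymplecticGroup.mem_iff'.1 g.2
  have h2 := congrArg (rho F e).symm h
  rw [map_mul, map_mul, rho_symm_transpose] at h2
  exact h2

lemma ghat_mul (e : Idx d ≃ (Fin m ⊕ Fin m)) (g g' : Matrix.symplecticGroup (Fin m) F) :
    ghat e (g * g') = ghat e g * ghat e g' := by
  change (rho F e).symm (g.1 * g'.1) = _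
  rw [map_mul]
  rfl

lemma exists_of_form (e : Idx d ≃ (Fin m ⊕ Fin m)) {a : Matrix (Idx d) (Idx d) F}
    (ha : aᵀ * OmH F e * a = OmH F e) :
    ∃ g : Matrix.symplecticGroup (Fin m) F, ghat e g = a := by
  refine ⟨⟨rho F e a, ?_⟩, ?_⟩
  · rw [SymplecticGroup.mem_iff', ← rho_transpose]
    have h2 := congrArg (rho F e) ha
    rw [map_mul, map_mul, OmH, AlgEquiv.apply_symm_apply] at h2
    exact h2
  · exact (rho F e).symm_apply_apply a

lemma ghat_injective (e : Idx d ≃ (Fin m ⊕ Fin m)) {g g' : Matrix.symplecticGroup (Fin m) F}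
    (h : ghat e g = ghat e g') : g = g' :=
  Subtype.ext ((rho F e).symm.injective h)

/-- the form attached to a conjugator -/
noncomputable def Yc (e : Idx d ≃ (Fin m ⊕ Fin m)) (c : Matrix (Idx d) (Idx d) F) :
    Matrix (Idx d) (Idx d) F := cᵀ * OmH F e * c

section Props

variable (e : Idx d ≃ (Fin m ⊕ Fin m))
variable {c c' : Matrix (Idx d) (Idx d) F} {g g' : Matrix.symplecticGroup (Fin m) F}

lemma Yc_frel (hc : c * Cfsg.jordanTypeMatrix d F = ghat e g * c) : FRel (Yc e c) := by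
  rw [← frel_iff]
  calc (Cfsg.jordanTypeMatrix d F)ᵀ * Yc e c * Cfsg.jordanTypeMatrix d F
      = (c * Cfsg.jordanTypeMatrix d F)ᵀ * OmH F e * (c * Cfsg.jordanTypeMatrix d F) := by
        rw [Matrix.transpose_mul, Yc]
        simp only [mul_assoc]
    _ = cᵀ * ((ghat e g)ᵀ * OmH F e * ghat e g) * c := by
        rw [hc, Matrix.transpose_mul]
        simp only [mul_assoc]
    _ = Yc e c := by rw [ghat_form, Yc]

lemma Yc_skew (c : Matrix (Idx d) (Idx d) F) : (Yc e c)ᵀ = - Yc e c := by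
  rw [Yc, Matrix.transpose_mul, Matrix.transpose_mul, Matrix.transpose_transpose, OmH_skew]
  simp only [mul_neg, neg_mul, mul_assoc]

lemma Yc_det (hc0 : c.det ≠ 0) : (Yc e c).det ≠ 0 := by
  rw [Yc, Matrix.det_mul, Matrix.det_mul, Matrix.det_transpose]
  exact mul_ne_zero (mul_ne_zero hc0 (OmH_det e)) hc0

/-- Conjugate elements have congruent forms. -/
lemma exists_cong_of_isConj (hc0 : c.det ≠ 0) (hc'0 : c'.det ≠ 0)
    (hc : c * Cfsg.jordanTypeMatrix d F = ghat e g * c)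
    (hc' : c' * Cfsg.jordanTypeMatrix d F = ghat e g' * c') (hconj : IsConj g g') :
    ∃ x : Matrix (Idx d) (Idx d) F, Rel x ∧ x.det ≠ 0 ∧ xᵀ * Yc e c * x = Yc e c' := by
  rw [isConj_iff] at hconj
  obtain ⟨a, rfl⟩ := hconj
  set A := ghat e a with hA
  have hAform : Aᵀ * OmH F e * A = OmH F e := ghat_form e a
  have hAu : A.det ≠ 0 := by
    intro h0
    have h1 := congrArg Matrix.det hAform
    rw [Matrix.det_mul, Matrix.det_mul, h0, mul_zero] at h1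
    exact OmH_det e h1.symm
  set c2 := A * c with hc2
  have hc20 : c2.det ≠ 0 := by
    rw [hc2, Matrix.det_mul]
    exact mul_ne_zero hAu hc0
  have hg' : ghat e (a * g * a⁻¹) * A = A * ghat e g := by
    rw [hA, ← ghat_mul, ← ghat_mul]
    congr 1
    group
  have hc2J : c2 * Cfsg.jordanTypeMatrix d F = ghat e (a * g * a⁻¹) * c2 := by
    rw [hc2, mul_assoc, hc, ← mul_assoc, ← mul_assoc, hg']
  have hu : IsUnit c2.det := isUnit_iff_ne_zero.2 hc20
  have h1 : c2 * c2⁻¹ = 1 := Matrix.mul_nonsing_inv _ hu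
  have h2 : c2⁻¹ * c2 = 1 := Matrix.nonsing_inv_mul _ hu
  set x := c2⁻¹ * c' with hx
  have hc2x : c2 * x = c' := by
    rw [hx, ← mul_assoc, h1, one_mul]
  have hxJ : x * Cfsg.jordanTypeMatrix d F = Cfsg.jordanTypeMatrix d F * x := by
    have h3 : Cfsg.jordanTypeMatrix d F * c2⁻¹ = c2⁻¹ * ghat e (a * g * a⁻¹) := by
      calc Cfsg.jordanTypeMatrix d F * c2⁻¹ = c2⁻¹ * (c2 * Cfsg.jordanTypeMatrix d F) * c2⁻¹ := by
            rw [← mul_assoc, h2, one_mul]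
        _ = c2⁻¹ * ghat e (a * g * a⁻¹) := by
            rw [hc2J, mul_assoc, mul_assoc, h1, mul_one]
    rw [hx, mul_assoc, hc', ← mul_assoc, ← mul_assoc, h3]
  refine ⟨x, (comm_iff x).1 hxJ, ?_, ?_⟩
  · rw [hx, Matrix.det_mul]
    refine mul_ne_zero ?_ hc'0
    rw [Matrix.det_nonsing_inv, Ring.inverse_eq_inv']
    exact inv_ne_zero hc20
  · have e1 : Yc e c = c2ᵀ * OmH F e * c2 := by
      rw [hc2, Matrix.transpose_mul]
      calc Yc e c = cᵀ * (Aᵀ * OmH F e * A) * c := by rw [hAform, Yc]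
        _ = _ := by simp only [mul_assoc]
    have e2 : Yc e c' = xᵀ * (c2ᵀ * OmH F e * c2) * x := by
      rw [Yc]
      conv_lhs => rw [← hc2x]
      rw [Matrix.transpose_mul]
      simp only [mul_assoc]
    rw [e1, e2]

/-- Congruent forms come from conjugate elements. -/
lemma isConj_of_cong {x : Matrix (Idx d) (Idx d) F} (hc0 : c.det ≠ 0) (hc'0 : c'.det ≠ 0)
    (hc : c * Cfsg.jordanTypeMatrix d F = ghat e g * c)
    (hc' : c' * Cfsg.jordanTypeMatrix d F = ghat e g' * c')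
    (hx : Rel x) (hx0 : x.det ≠ 0) (hY : xᵀ * Yc e c * x = Yc e c') : IsConj g g' := by
  have hcu : IsUnit c.det := isUnit_iff_ne_zero.2 hc0
  have hxu : IsUnit x.det := isUnit_iff_ne_zero.2 hx0
  have c1 : c * c⁻¹ = 1 := Matrix.mul_nonsing_inv _ hcu
  have c2 : c⁻¹ * c = 1 := Matrix.nonsing_inv_mul _ hcu
  have x1 : x * x⁻¹ = 1 := Matrix.mul_nonsing_inv _ hxu
  have x2 : x⁻¹ * x = 1 := Matrix.nonsing_inv_mul _ hxu
  have ct1 : (c⁻¹)ᵀ * cᵀ = 1 := by rw [← Matrix.transpose_mul, c1, Matrix.transpose_one]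
  have xt1 : (x⁻¹)ᵀ * xᵀ = 1 := by rw [← Matrix.transpose_mul, x1, Matrix.transpose_one]
  set a := c' * x⁻¹ * c⁻¹ with ha
  have hform : aᵀ * OmH F e * a = OmH F e := by
    have e1 : aᵀ * OmH F e * a = (c⁻¹)ᵀ * ((x⁻¹)ᵀ * Yc e c' * x⁻¹) * c⁻¹ := by
      rw [ha, Yc, Matrix.transpose_mul, Matrix.transpose_mul]
      simp only [mul_assoc]
    rw [e1, ← hY]
    calc (c⁻¹)ᵀ * ((x⁻¹)ᵀ * (xᵀ * Yc e c * x) * x⁻¹) * c⁻¹
        = (c⁻¹)ᵀ * (((x⁻¹)ᵀ * xᵀ) * Yc e c * (x * x⁻¹)) * c⁻¹ := by simp only [mul_assoc]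
      _ = ((c⁻¹)ᵀ * cᵀ) * OmH F e * (c * c⁻¹) := by
          rw [xt1, x1, one_mul, mul_one, Yc]; simp only [mul_assoc]
      _ = OmH F e := by rw [ct1, c1, one_mul, mul_one]
  obtain ⟨a₀, ha₀⟩ := exists_of_form e hform
  rw [isConj_iff]
  refine ⟨a₀, ?_⟩
  rw [mul_inv_eq_iff_eq_mul]
  apply ghat_injective e
  rw [ghat_mul, ghat_mul, ha₀, ha]
  have hJ := (comm_iff x).2 hx
  have hJi : x⁻¹ * Cfsg.jordanTypeMatrix d F = Cfsg.jordanTypeMatrix d F * x⁻¹ := by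
    calc x⁻¹ * Cfsg.jordanTypeMatrix d F = x⁻¹ * Cfsg.jordanTypeMatrix d F * (x * x⁻¹) := by
          rw [x1, mul_one]
      _ = x⁻¹ * (Cfsg.jordanTypeMatrix d F * x) * x⁻¹ := by simp only [mul_assoc]
      _ = x⁻¹ * (x * Cfsg.jordanTypeMatrix d F) * x⁻¹ := by rw [hJ]
      _ = (x⁻¹ * x) * Cfsg.jordanTypeMatrix d F * x⁻¹ := by simp only [mul_assoc]
      _ = _ := by rw [x2, one_mul]
  have hcg : c⁻¹ * ghat e g = Cfsg.jordanTypeMatrix d F * c⁻¹ := by
    calc c⁻¹ * ghat e g = c⁻¹ * ghat e g * (c * c⁻¹) := by rw [c1, mul_one]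
      _ = c⁻¹ * (ghat e g * c) * c⁻¹ := by simp only [mul_assoc]
      _ = (c⁻¹ * c) * Cfsg.jordanTypeMatrix d F * c⁻¹ := by rw [← hc]; simp only [mul_assoc]
      _ = _ := by rw [c2, one_mul]
  calc c' * x⁻¹ * c⁻¹ * ghat e g = c' * x⁻¹ * (c⁻¹ * ghat e g) := by simp only [mul_assoc]
    _ = c' * (x⁻¹ * Cfsg.jordanTypeMatrix d F) * c⁻¹ := by rw [hcg]; simp only [mul_assoc]
    _ = (c' * Cfsg.jordanTypeMatrix d F) * x⁻¹ * c⁻¹ := by rw [hJi]; simp only [mul_assoc]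
    _ = ghat e g' * (c' * x⁻¹ * c⁻¹) := by rw [hc']; simp only [mul_assoc]

/-- Every invertible invariant skew form comes from an element of `Sp`. -/
lemma exists_of_skew (h2 : (2 : F) ≠ 0) {Y : Matrix (Idx d) (Idx d) F} (hY : FRel Y)
    (hs : Yᵀ = -Y) (hdet : Y.det ≠ 0) :
    ∃ (g : Matrix.symplecticGroup (Fin m) F) (c : Matrix (Idx d) (Idx d) F), c.det ≠ 0 ∧
      c * Cfsg.jordanTypeMatrix d F = ghat e g * c ∧ Yc e c = Y := by
  obtain ⟨c, hc0, hcY⟩ := cong_skew h2 (OmH_skew e) (OmH_det e) hs hdet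
  have hcu : IsUnit c.det := isUnit_iff_ne_zero.2 hc0
  have c1 : c * c⁻¹ = 1 := Matrix.mul_nonsing_inv _ hcu
  have c2 : c⁻¹ * c = 1 := Matrix.nonsing_inv_mul _ hcu
  have ct1 : (c⁻¹)ᵀ * cᵀ = 1 := by rw [← Matrix.transpose_mul, c1, Matrix.transpose_one]
  set a := c * Cfsg.jordanTypeMatrix d F * c⁻¹ with ha
  have hJ := (frel_iff Y).2 hY
  have hform : aᵀ * OmH F e * a = OmH F e := by
    have e1 : aᵀ * OmH F e * a = (c⁻¹)ᵀ * ((Cfsg.jordanTypeMatrix d F)ᵀ * (cᵀ * OmH F e * c) *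
        Cfsg.jordanTypeMatrix d F) * c⁻¹ := by
      rw [ha, Matrix.transpose_mul, Matrix.transpose_mul]
      simp only [mul_assoc]
    rw [e1, hcY, hJ, ← hcY]
    calc (c⁻¹)ᵀ * (cᵀ * OmH F e * c) * c⁻¹ = ((c⁻¹)ᵀ * cᵀ) * OmH F e * (c * c⁻¹) := by
          simp only [mul_assoc]
      _ = OmH F e := by rw [ct1, c1, one_mul, mul_one]
  obtain ⟨g, hg⟩ := exists_of_form e hform
  refine ⟨g, c, hc0, ?_, hcY⟩
  rw [hg, ha, mul_assoc, c2, mul_one]

end Props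

end Cfsg.Agent.Lib.Linalg.JordanCent.SpClasses
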