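import Mathlib
import Cfsg.Agent.Lib.Linalg.JordanCent.SpClasses

/-!
# The number of `Sp`-classes within a `GL`-class of unipotent elements
-/

set_option autoImplicit false
set_option linter.unusedSectionVars false
set_option linter.unusedVariables false

open scoped Matrix

namespace Cfsg.Agent.Lib.Linalg.JordanCent.SpCount

open Cfsg.Agent.Lib.Linalg.JordanCent Cfsg.Agent.Lib.Linalg.JordanCent.GUForms
  Cfsg.Agent.Lib.Linalg.JordanCent.SpBase Cfsg.Agent.Lib.Linalg.JordanCent.SpForms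
  Cfsg.Agent.Lib.Linalg.JordanCent.SpClasses

variable {t m : ℕ} {d : Fin t → ℕ} {F : Type*} [Field F] [Fintype F]

lemma card_eq_of_rel {X Y : Type*} (R : X → Y → Prop) (h1 : ∀ x, ∃ y, R x y) (h2 : ∀ y, ∃ x, R x y)
    (h3 : ∀ x y y', R x y → R x y' → y = y') (h4 : ∀ x x' y, R x y → R x' y → x = x') :
    Nat.card X = Nat.card Y := by
  choose f hf using h1
  refine Nat.card_congr (Equiv.ofBijective f ⟨?_, ?_⟩)
  · intro x x' hxx
    exact h4 x x' (f x) (hf x) (hxx ▸ hf x')
  · intro y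
    obtain ⟨x, hx⟩ := h2 y
    exact ⟨x, h3 x _ _ (hf x) hx⟩

lemma isSquare_sq_mul' {u a : F} (hu : u ≠ 0) : IsSquare (u ^ 2 * a) ↔ IsSquare a := by
  constructor
  · intro h
    have h1 : a = (u⁻¹) ^ 2 * (u ^ 2 * a) := by
      field_simp
    rw [h1]
    exact (IsSquare.sq _).mul h
  · intro h
    exact (IsSquare.sq _).mul h

lemma isSquare_mul_of_iff [DecidableEq F] (h2 : ringChar F ≠ 2) {a b : F} (ha : a ≠ 0) (hb : b ≠ 0)
    (h : IsSquare a ↔ IsSquare b) : IsSquare (a * b) := by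
  by_cases h1 : IsSquare a
  · exact h1.mul (h.1 h1)
  · have h3 : ¬ IsSquare b := fun h4 => h1 (h.2 h4)
    have e1 : quadraticChar F a = -1 := quadraticChar_neg_one_iff_not_isSquare.2 h1
    have e2 : quadraticChar F b = -1 := quadraticChar_neg_one_iff_not_isSquare.2 h3
    rw [← quadraticChar_one_iff_isSquare (mul_ne_zero ha hb), map_mul, e1, e2]
    norm_num

/-- conjugacy to the Jordan matrix in terms of `ghat` -/
lemma isConj_iff_exists (e : Idx d ≃ (Fin m ⊕ Fin m)) (g : Matrix.symplecticGroup (Fin m) F) :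
    IsConj (Matrix.reindex e e (Cfsg.jordanTypeMatrix d F)) g.1 ↔
      ∃ c : Matrix (Idx d) (Idx d) F, c.det ≠ 0 ∧ c * Cfsg.jordanTypeMatrix d F = ghat e g * c := by
  constructor
  · rintro ⟨c, hc⟩
    have h1 : (c : Matrix (Fin m ⊕ Fin m) (Fin m ⊕ Fin m) F) * rho F e (Cfsg.jordanTypeMatrix d F) =
        g.1 * c := hc.eq
    refine ⟨(rho F e).symm c, ?_, ?_⟩
    · rw [det_rho_symm]
      exact ((Matrix.isUnit_iff_isUnit_det _).1 c.isUnit).ne_zero
    · have h2 := congrArg (rho F e).symm h1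
      rw [map_mul, map_mul, AlgEquiv.symm_apply_apply] at h2
      exact h2
  · rintro ⟨c, hc0, hc⟩
    have hu : IsUnit (rho F e c) := by
      rw [Matrix.isUnit_iff_isUnit_det, isUnit_iff_ne_zero]
      change (Matrix.reindex e e c).det ≠ 0
      rwa [Matrix.det_reindex_self]
    refine ⟨hu.unit, ?_⟩
    change rho F e c * rho F e (Cfsg.jordanTypeMatrix d F) = g.1 * rho F e c
    rw [← map_mul, hc, map_mul]
    congr 1
    exact (rho F e).apply_symm_apply g.1

/-- A unipotent with odd block size of odd multiplicity does not occur in `Sp`. -/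
theorem even_card_fib (h2 : (2 : F) ≠ 0) (hd : ∀ k, 1 ≤ d k) (e : Idx d ≃ (Fin m ⊕ Fin m))
    (g : Matrix.symplecticGroup (Fin m) F)
    (hg : IsConj (Matrix.reindex e e (Cfsg.jordanTypeMatrix d F)) g.1) {j : ℕ} (hj : Odd j) :
    Even (Fintype.card (Fib d j)) := by
  classical
  obtain ⟨c, hc0, hc⟩ := (isConj_iff_exists e g).1 hg
  have hY := Yc_frel e hc
  have hs := Yc_skew e c
  have hdet := Yc_det e hc0
  have hP := pG_skew hd hY hs j
  rw [hj.neg_one_pow, neg_smul, one_smul] at hP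
  exact even_card_of_skew h2 hP ((det_ne_zero_iff_pG hd hY).1 hdet j)

/-- the even block sizes -/
def Esz (d : Fin t → ℕ) : Finset ℕ := (Finset.univ.image d).filter Even

lemma mem_Esz {i : ℕ} : i ∈ Esz d ↔ Even i ∧ Nonempty (Fib d i) := by
  simp only [Esz, Finset.mem_filter, Finset.mem_image, Finset.mem_univ, true_and]
  constructor
  · rintro ⟨⟨k, hk⟩, hi⟩
    exact ⟨hi, ⟨⟨k, hk⟩⟩⟩
  · rintro ⟨hi, ⟨⟨k, hk⟩⟩⟩
    exact ⟨⟨k, hk⟩, hi⟩

/-- representing data of a class -/
def Rep (e : Idx d ≃ (Fin m ⊕ Fin m))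
    (C : {C : ConjClasses (Matrix.symplecticGroup (Fin m) F) // ∃ g : Matrix.symplecticGroup (Fin m) F,
      ConjClasses.mk g = C ∧ IsConj (Matrix.reindex e e (Cfsg.jordanTypeMatrix d F)) g.1})
    (s : Esz d → Bool) : Prop :=
  ∃ (g : Matrix.symplecticGroup (Fin m) F) (c : Matrix (Idx d) (Idx d) F), ConjClasses.mk g = C.1 ∧
    c.det ≠ 0 ∧ c * Cfsg.jordanTypeMatrix d F = ghat e g * c ∧
    ∀ i : Esz d, (IsSquare (pG (Yc e c) i).det ↔ s i = true)

/-- the count -/
theorem card_classes {p : ℕ} [Fact p.Prime] [CharP F p] (hp : p ≠ 2) (hd : ∀ k, 1 ≤ d k)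
    (e : Idx d ≃ (Fin m ⊕ Fin m)) (ha : ∀ j, Odd j → Even (Fintype.card (Fib d j))) :
    Nat.card {C : ConjClasses (Matrix.symplecticGroup (Fin m) F) // ∃ g : Matrix.symplecticGroup (Fin m) F,
      ConjClasses.mk g = C ∧ IsConj (Matrix.reindex e e (Cfsg.jordanTypeMatrix d F)) g.1} =
    2 ^ (Esz d).card := by
  classical
  have hpp : p.Prime := Fact.out
  have h2 : (2 : F) ≠ 0 := by
    intro h
    have h3 : ((2 : ℕ) : F) = 0 := by exact_mod_cast h
    rw [CharP.cast_eq_zero_iff F p] at h3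
    exact hp ((Nat.prime_dvd_prime_iff_eq hpp Nat.prime_two).1 h3)
  have hchar : ringChar F ≠ 2 := by
    rw [ringChar.eq F p]
    exact hp
  have hN : ∀ k, d k < Finset.univ.sup d + 1 := fun k =>
    Nat.lt_succ_of_le (Finset.le_sup (Finset.mem_univ k))
  set N := Finset.univ.sup d + 1 with hNdef
  have hempty : ∀ i, N ≤ i → IsEmpty (Fib d i) := fun i hi =>
    ⟨fun k => by have := hN k.1; have := k.2; omega⟩
  have hcard2 : Nat.card (Esz d → Bool) = 2 ^ (Esz d).card := by
    simp [Nat.card_eq_fintype_card]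
  rw [← hcard2]
  refine card_eq_of_rel (Rep e) ?_ ?_ ?_ ?_
  · -- every class has data
    rintro ⟨C, g, rfl, hg⟩
    obtain ⟨c, hc0, hc⟩ := (isConj_iff_exists e g).1 hg
    exact ⟨fun i => decide (IsSquare (pG (Yc e c) i).det), g, c, rfl, hc0, hc, fun i => by simp⟩
  · -- every sign occurs
    intro s
    obtain ⟨δ, hδ⟩ := FiniteField.exists_nonsquare hchar
    have hδ0 : δ ≠ 0 := by
      rintro rfl
      exact hδ IsSquare.zero
    have hex : ∀ i : Finset.range N, ∃ P : Matrix (Fib d i) (Fib d i) F,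
        Pᵀ = ((-1 : F) ^ (i : ℕ)) • P ∧ P.det ≠ 0 ∧
        ∀ h : (i : ℕ) ∈ Esz d, (IsSquare P.det ↔ s ⟨i, h⟩ = true) := by
      rintro ⟨i, hi⟩
      by_cases hodd : Odd i
      · obtain ⟨P, hP, hP0⟩ := exists_skew (F := F) (ha i hodd)
        refine ⟨P, ?_, hP0, ?_⟩
        · rw [hodd.neg_one_pow, neg_smul, one_smul]
          exact hP
        · intro h
          exact absurd (mem_Esz.1 h).1 (Nat.not_even_iff_odd.2 hodd)
      · have heven : Even i := Nat.not_odd_iff_even.1 hodd
        by_cases hne : Nonempty (Fib d i)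
        · have hmem : i ∈ Esz d := mem_Esz.2 ⟨heven, hne⟩
          by_cases hs : s ⟨i, hmem⟩ = true
          · obtain ⟨P, hP, hP0⟩ := exists_symm_det (κ := Fib d i) (one_ne_zero (α := F))
            refine ⟨P, ?_, by rw [hP0]; exact one_ne_zero, fun _ => ?_⟩
            · rw [heven.neg_one_pow, one_smul]
              exact hP
            · rw [hP0]
              simp [hs]
          · obtain ⟨P, hP, hP0⟩ := exists_symm_det (κ := Fib d i) hδ0
            refine ⟨P, ?_, by rw [hP0]; exact hδ0, fun _ => ?_⟩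
            · rw [heven.neg_one_pow, one_smul]
              exact hP
            · rw [hP0]
              simp [hs, hδ]
        · haveI : IsEmpty (Fib d i) := not_nonempty_iff.1 hne
          refine ⟨0, Subsingleton.elim _ _, ?_, ?_⟩
          · rw [Matrix.det_isEmpty]
            exact one_ne_zero
          · intro h
            exact absurd (mem_Esz.1 h).2 hne
    choose P hPs hP0 hPsq using hex
    obtain ⟨Y, hY, hYs, hYP⟩ := exists_skew_lift h2 hd hN P hPs
    have hYdet : Y.det ≠ 0 := by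
      rw [det_ne_zero_iff_pG hd hY]
      intro i
      by_cases hi : i < N
      · rw [hYP ⟨i, Finset.mem_range.2 hi⟩]
        exact hP0 _
      · haveI := hempty i (by omega)
        rw [Matrix.det_isEmpty]
        exact one_ne_zero
    obtain ⟨g, c, hc0, hc, hcY⟩ := exists_of_skew e h2 hY hYs hYdet
    refine ⟨⟨ConjClasses.mk g, g, rfl, (isConj_iff_exists e g).2 ⟨c, hc0, hc⟩⟩, g, c, rfl, hc0, hc, ?_⟩
    intro i
    rw [hcY]
    have hiN : (i : ℕ) < N := by
      obtain ⟨k⟩ := (mem_Esz.1 i.2).2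
      have := hN k.1
      have hk' : d k.1 = i := k.2
      omega
    have h3 := hPsq ⟨i, Finset.mem_range.2 hiN⟩ i.2
    rw [hYP ⟨i, Finset.mem_range.2 hiN⟩]
    exact h3
  · -- the sign is determined by the class
    rintro C s s' ⟨g, c, hgC, hc0, hc, hs⟩ ⟨g', c', hgC', hc'0, hc', hs'⟩
    have hconj : IsConj g g' := by
      rw [← ConjClasses.mk_eq_mk_iff_isConj, hgC, hgC']
    obtain ⟨x, hx, hx0, hxY⟩ := exists_cong_of_isConj e hc0 hc'0 hc hc' hconj
    funext i
    have hY := Yc_frel e hc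
    have h3 := pG_cong hd hY hx i
    rw [hxY] at h3
    have h4 := Cong.det_eq h3.symm
    have h5 : (diagBlock x i).det ≠ 0 := (det_ne_zero_iff hd hx).1 hx0 i
    have h6 : IsSquare (pG (Yc e c') i).det ↔ IsSquare (pG (Yc e c) i).det := by
      rw [h4]
      exact isSquare_sq_mul' h5
    have h7 : s i = true ↔ s' i = true := by
      rw [← hs i, ← hs' i, h6]
    cases h8 : s i <;> cases h9 : s' i <;> simp_all
  · -- the class is determined by the sign
    rintro ⟨C, hC⟩ ⟨C', hC'⟩ s ⟨g, c, hgC, hc0, hc, hs⟩ ⟨g', c', hgC', hc'0, hc', hs'⟩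
    apply Subtype.ext
    change C = C'
    change ConjClasses.mk g = C at hgC
    change ConjClasses.mk g' = C' at hgC'
    rw [← hgC, ← hgC', ConjClasses.mk_eq_mk_iff_isConj]
    have hY := Yc_frel e hc
    have hY' := Yc_frel e hc'
    have hsk := Yc_skew e c
    have hsk' := Yc_skew e c'
    have hdet := Yc_det e hc0
    have hdet' := Yc_det e hc'0
    have hcong : ∀ i : Finset.range N, Cong (pG (Yc e c) i) (pG (Yc e c') i) := by
      rintro ⟨i, hi⟩
      have hP := pG_skew hd hY hsk i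
      have hP' := pG_skew hd hY' hsk' i
      have hd1 := (det_ne_zero_iff_pG hd hY).1 hdet i
      have hd2 := (det_ne_zero_iff_pG hd hY').1 hdet' i
      by_cases hodd : Odd i
      · rw [hodd.neg_one_pow, neg_smul, one_smul] at hP hP'
        exact cong_skew h2 hP hd1 hP' hd2
      · have heven : Even i := Nat.not_odd_iff_even.1 hodd
        rw [heven.neg_one_pow, one_smul] at hP hP'
        by_cases hne : Nonempty (Fib d i)
        · have hmem : i ∈ Esz d := mem_Esz.2 ⟨heven, hne⟩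
          refine cong_symm h2 hP hd1 hP' hd2 (isSquare_mul_of_iff hchar hd1 hd2 ?_)
          rw [hs ⟨i, hmem⟩, hs' ⟨i, hmem⟩]
        · haveI : IsEmpty (Fib d i) := not_nonempty_iff.1 hne
          rw [Subsingleton.elim (pG (Yc e c) i) (pG (Yc e c') i)]
          exact Cong.refl _
    choose Q hQ0 hQ using hcong
    obtain ⟨x, hx, hx0, hxY⟩ := exists_cong_of_pG_cong p hp hd hN hY hsk hdet hY' hsk' hdet' Q hQ0 hQ
    exact isConj_of_cong e hc0 hc'0 hc hc' hx hx0 hxY

end Cfsg.Agent.Lib.Linalg.JordanCent.SpCount
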