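import Mathlib
import Cfsg.Agent.Lib.Linalg.JordanCent.SpCount
import Cfsg.Agent.Lib.Linalg.UnipotentClasses
import Cfsg.Agent.Lib.Classical.Lin.JT1

/-!
# The elementary divisors of a Jordan matrix; classes of `Sp` of exponent `p`
-/

set_option autoImplicit false
set_option linter.unusedSectionVars false
set_option linter.unusedVariables false

open scoped Matrix

namespace Cfsg.Agent.Lib.Linalg.JordanCent.SpType

open Polynomial Module
open Cfsg.Agent.Lib.Linalg.RCF Cfsg.Agent.Lib.Linalg.RCFType Cfsg.Agent.Lib.Linalg.UnipotentClasses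
open Cfsg.Agent.Lib.Linalg.JordanCent Cfsg.Agent.Lib.Linalg.JordanCent.SpCount
open Cfsg.Agent.Lib.Classical.Lin.JT1

section Model

universe u

variable {F : Type u} [Field F]

/-- the polynomial of a coefficient vector -/
noncomputable def polyLin (n : ℕ) : (Fin n → F) →ₗ[F] F[X] where
  toFun x := ∑ a, C (x a) * (X - 1) ^ (a : ℕ)
  map_add' x y := by
    simp only [Pi.add_apply, map_add, add_mul, Finset.sum_add_distrib]
  map_smul' c x := by
    simp only [Pi.smul_apply, smul_eq_mul, map_mul, RingHom.id_apply, Finset.smul_sum, mul_assoc,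
      Polynomial.smul_eq_C_mul]

lemma polyLin_apply {n : ℕ} (x : Fin n → F) : polyLin n x = ∑ a, C (x a) * (X - 1) ^ (a : ℕ) := rfl

lemma polyLin_comp {n : ℕ} (x : Fin n → F) :
    (polyLin n x).comp (X + 1) = ∑ a, C (x a) * X ^ (a : ℕ) := by
  rw [polyLin_apply, Polynomial.sum_comp]
  refine Finset.sum_congr rfl fun a _ => ?_
  simp

lemma polyLin_injective (n : ℕ) : Function.Injective (polyLin (F := F) n) := by
  rw [injective_iff_map_eq_zero]
  intro x hx
  have h := polyLin_comp x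
  rw [hx, zero_comp] at h
  funext a
  have h1 := congrArg (fun q => q.coeff (a : ℕ)) h
  simp only [coeff_zero, finsetSum_coeff, coeff_C_mul, coeff_X_pow] at h1
  rw [Finset.sum_eq_single a] at h1
  · simpa using h1.symm
  · intro b _ hb
    have : (a : ℕ) ≠ b := fun h2 => hb (Fin.ext h2.symm)
    simp [this]
  · simp

lemma degree_X_sub_one_pow (a : ℕ) : ((X - 1 : F[X]) ^ a).degree = a := by
  rw [degree_pow, show (X - 1 : F[X]) = X - C 1 by simp, degree_X_sub_C]
  simp

lemma polyLin_degree {n : ℕ} (x : Fin n → F) : (polyLin n x).degree < ((X - 1 : F[X]) ^ n).degree := by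
  rw [polyLin_apply, degree_X_sub_one_pow]
  refine lt_of_le_of_lt (Polynomial.degree_sum_le _ _) ?_
  rw [Finset.sup_lt_iff (WithBot.bot_lt_coe _)]
  intro a _
  refine lt_of_le_of_lt (degree_mul_le _ _) ?_
  rw [degree_X_sub_one_pow]
  have h1 : (C (x a)).degree ≤ 0 := degree_C_le
  have h2 : ((a : ℕ) : WithBot ℕ) < (n : WithBot ℕ) := by exact_mod_cast a.2
  calc (C (x a)).degree + ((a : ℕ) : WithBot ℕ) ≤ 0 + ((a : ℕ) : WithBot ℕ) := by gcongr
    _ = ((a : ℕ) : WithBot ℕ) := zero_add _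
    _ < n := h2

lemma dvd_shift {n : ℕ} (x y : Fin n → F)
    (hy : ∀ a : Fin n, y a = x a + if h : 0 < (a : ℕ) then x ⟨a - 1, by have := a.2; omega⟩ else 0) :
    (X - 1 : F[X]) ^ n ∣ X * polyLin n x - polyLin n y := by
  cases n with
  | zero => simp
  | succ n =>
    have h1 : polyLin (n + 1) y = polyLin (n + 1) x + ∑ b : Fin n, C (x b.castSucc) * (X - 1) ^ ((b : ℕ) + 1) := by
      rw [polyLin_apply, polyLin_apply]
      simp only [hy, map_add, add_mul]
      rw [Finset.sum_add_distrib]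
      congr 1
      rw [Fin.sum_univ_succ]
      simp
      refine Finset.sum_congr rfl fun b _ => ?_
      rfl
    have h2 : (X - 1 : F[X]) * polyLin (n + 1) x =
        (∑ b : Fin n, C (x b.castSucc) * (X - 1) ^ ((b : ℕ) + 1)) +
          C (x (Fin.last n)) * (X - 1) ^ (n + 1) := by
      rw [polyLin_apply, Finset.mul_sum, Fin.sum_univ_castSucc]
      simp only [Fin.val_castSucc, Fin.val_last]
      congr 1
      · refine Finset.sum_congr rfl fun b _ => ?_
        ring
      · ring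
    refine ⟨C (x (Fin.last n)), ?_⟩
    rw [h1]
    linear_combination h2

/-- the map to the model -/
noncomputable def psi {t : ℕ} (d : Fin t → ℕ) :
    (Idx d → F) →ₗ[F] Model (fun k => ((X - 1 : F[X]), d k)) :=
  LinearMap.pi fun k =>
    ((Submodule.mkQ (Submodule.span F[X] {((X - 1 : F[X]) ^ d k)})).restrictScalars F) ∘ₗ polyLin (d k) ∘ₗ
      { toFun := fun x a => x ⟨k, a⟩
        map_add' := fun _ _ => rfl
        map_smul' := fun _ _ => rfl }

lemma psi_apply {t : ℕ} (d : Fin t → ℕ) (x : Idx d → F) (k : Fin t) :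
    psi d x k = Submodule.Quotient.mk (polyLin (d k) fun a => x ⟨k, a⟩) := rfl

lemma psi_injective {t : ℕ} (d : Fin t → ℕ) : Function.Injective (psi (F := F) d) := by
  rw [injective_iff_map_eq_zero]
  intro x hx
  funext ⟨k, a⟩
  have h1 := congrFun hx k
  rw [psi_apply] at h1
  have h2 := (Submodule.Quotient.mk_eq_zero _).1 h1
  rw [Submodule.mem_span_singleton] at h2
  obtain ⟨r, hr⟩ := h2
  have h3 : (X - 1 : F[X]) ^ d k ∣ polyLin (d k) fun a => x ⟨k, a⟩ := ⟨r, by rw [← hr, smul_eq_mul, mul_comm]⟩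
  have h4 := eq_zero_of_dvd_of_degree_lt h3 (polyLin_degree _)
  have h5 : (fun a => x ⟨k, a⟩) = 0 := polyLin_injective _ (by rw [h4, map_zero])
  exact congrFun h5 a

lemma adm_jordan {n : ℕ} (hn : 1 ≤ n) : Adm ((X - 1 : F[X]), n) :=
  ⟨monic_X_sub_one, irreducible_X_sub_one, hn⟩

/-- the linear equivalence to the model -/
noncomputable def psiEquiv {t : ℕ} (d : Fin t → ℕ) (hd : ∀ k, 1 ≤ d k) :
    (Idx d → F) ≃ₗ[F] Model (fun k => ((X - 1 : F[X]), d k)) := by
  classical
  have hc : ∀ k, Adm (((X - 1 : F[X]), d k) : F[X] × ℕ) := fun k => adm_jordan (hd k)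
  haveI hfin : ∀ k, FiniteDimensional F (Q (((X - 1 : F[X])) ^ (d k))) := fun k =>
    Q_finite_of_ne (pow_ne_zero _ (hc k).2.1.ne_zero)
  refine LinearMap.linearEquivOfInjective (psi d) (psi_injective d) ?_
  rw [finrank_model hc, Module.finrank_fintype_fun_eq_card, Fintype.card_sigma]
  simp [natDegree_X_sub_one]

lemma psiEquiv_apply {t : ℕ} (d : Fin t → ℕ) (hd : ∀ k, 1 ≤ d k) (x : Idx d → F) :
    psiEquiv d hd x = psi d x := by
  classical
  simp [psiEquiv]

lemma psi_jordan {t : ℕ} (d : Fin t → ℕ) (x : Idx d → F) :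
    psi d (Cfsg.jordanTypeMatrix d F *ᵥ x) = (X : F[X]) • psi d x := by
  funext k
  rw [psi_apply, Pi.smul_apply, psi_apply, ← Submodule.Quotient.mk_smul]
  symm
  rw [Submodule.Quotient.eq, Submodule.mem_span_singleton, smul_eq_mul]
  obtain ⟨r, hr⟩ := dvd_shift (fun a => x ⟨k, a⟩) (fun a => (Cfsg.jordanTypeMatrix d F *ᵥ x) ⟨k, a⟩) (by
    intro a
    rw [jordan_mulVec, Pi.add_apply, nL_apply])
  exact ⟨r, by rw [hr, mul_comm, smul_eq_mul]⟩

/-- The elementary divisors of a (reindexed) Jordan matrix. -/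
theorem matType_jordan {t : ℕ} {d : Fin t → ℕ} (hd : ∀ k, 1 ≤ d k) {ι : Type*} [Fintype ι] [DecidableEq ι]
    (e : Idx d ≃ ι) :
    matType (Matrix.reindex e e (Cfsg.jordanTypeMatrix d F)) =
      Multiset.map (fun k => ((X - 1 : F[X]), d k)) Finset.univ.val := by
  refine typeOf_eq_of_model (fun k => adm_jordan (hd k)) _
    ((LinearEquiv.funCongrLeft F F e) ≪≫ₗ psiEquiv d hd) fun v => ?_
  simp only [LinearEquiv.trans_apply, psiEquiv_apply]
  rw [← psi_jordan]
  congr 1
  funext a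
  simp [LinearEquiv.funCongrLeft, Matrix.toLin'_apply, Matrix.mulVec, dotProduct, Matrix.reindex_apply]

end Model

section Count

variable {F : Type*} [Field F]

lemma exists_enum (s : Multiset ℕ) :
    ∃ (t : ℕ) (d : Fin t → ℕ), Multiset.map d Finset.univ.val = s := by
  refine ⟨s.toList.length, s.toList.get, ?_⟩
  rw [Fin.univ_val_map, List.ofFn_get, Multiset.coe_toList]

variable {ι : Type*} [Fintype ι] [DecidableEq ι]

/-- conjugacy of invertible matrices in terms of the type -/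
lemma isConj_iff_matType' {A B : Matrix ι ι F} (hA : IsUnit A) (hB : IsUnit B) :
    IsConj A B ↔ matType A = matType B := by
  have h1 : IsConj A B ↔ IsConj hA.unit hB.unit := by
    constructor
    · rintro ⟨c, hc⟩
      rw [isConj_iff]
      refine ⟨c, Units.ext ?_⟩
      have hc' : (c : Matrix ι ι F) * A = B * c := hc.eq
      change (c : Matrix ι ι F) * A * ((c⁻¹ : (Matrix ι ι F)ˣ) : Matrix ι ι F) = B
      rw [hc', mul_assoc, Units.mul_inv, mul_one]
    · intro h
      rw [isConj_iff] at h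
      obtain ⟨c, hc⟩ := h
      have hc' := congrArg (fun x : (Matrix ι ι F)ˣ => (x : Matrix ι ι F)) hc
      change (c : Matrix ι ι F) * A * ((c⁻¹ : (Matrix ι ι F)ˣ) : Matrix ι ι F) = B at hc'
      refine ⟨c, ?_⟩
      change (c : Matrix ι ι F) * A = B * c
      rw [← hc', mul_assoc, mul_assoc, Units.inv_mul, mul_one]
  rw [h1, isConj_iff_matType_eq]
  rfl

/-- a matrix with unipotent type given by the multiset `s` -/
def IsTyp (s : Multiset ℕ) (A : Matrix ι ι F) : Prop :=
  (∀ a ∈ matType A, a.1 = X - 1) ∧ (matType A).map Prod.snd = s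

lemma isTyp_iff (s : Multiset ℕ) (A : Matrix ι ι F) :
    IsTyp s A ↔ matType A = s.map (fun j => ((X - 1 : F[X]), j)) := by
  constructor
  · rintro ⟨h1, rfl⟩
    rw [Multiset.map_map]
    conv_lhs => rw [← Multiset.map_id (matType A)]
    refine Multiset.map_congr rfl fun a ha => ?_
    simp [← h1 a ha]
  · intro h
    rw [IsTyp, h, Multiset.map_map]
    refine ⟨fun a ha => ?_, ?_⟩
    · obtain ⟨j, _, rfl⟩ := Multiset.mem_map.1 ha
      rfl
    · simp

lemma isUnit_jordan {t : ℕ} {d : Fin t → ℕ} (hd : ∀ k, 1 ≤ d k) (e : Idx d ≃ ι) :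
    IsUnit (Matrix.reindex e e (Cfsg.jordanTypeMatrix d F)) := by
  rw [isUnit_iff_matType, matType_jordan hd]
  intro a ha
  obtain ⟨k, _, rfl⟩ := Multiset.mem_map.1 ha
  exact X_sub_one_ne_X

lemma isConj_iff_isTyp {t : ℕ} {d : Fin t → ℕ} (hd : ∀ k, 1 ≤ d k) (e : Idx d ≃ ι) {s : Multiset ℕ}
    (hs : Multiset.map d Finset.univ.val = s) {A : Matrix ι ι F} (hA : IsUnit A) :
    IsConj (Matrix.reindex e e (Cfsg.jordanTypeMatrix d F)) A ↔ IsTyp s A := by
  rw [isConj_iff_matType' (isUnit_jordan hd e) hA, isTyp_iff, matType_jordan hd, ← hs, Multiset.map_map]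
  constructor
  · intro h
    exact h.symm
  · intro h
    exact h.symm

lemma pow_eq_one_iff_type {p : ℕ} [Fact p.Prime] [CharP F p] (A : Matrix ι ι F) :
    A ^ p = 1 ↔ ∀ a ∈ matType A, a.1 = X - 1 ∧ a.2 ≤ p := by
  have hpp : p.Prime := Fact.out
  have h1 : (X - 1 : F[X]) ^ p = X ^ p - 1 := by
    rw [sub_pow_char, one_pow]
  have h2 : aeval A ((X - 1 : F[X]) ^ p) = A ^ p - 1 := by
    rw [h1]
    simp
  rw [← sub_eq_zero, ← h2, aeval_matrix_eq_zero_iff]
  refine forall₂_congr fun a ha => ?_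
  have hadm := matType_adm A a ha
  exact dvd_X_sub_one_pow_iff hadm.1 hadm.2.1 hadm.2.2 p

end Count

section Main

variable {F : Type*} [Field F] {m : ℕ}

lemma isUnit_sp (g : Matrix.symplecticGroup (Fin m) F) :
    IsUnit (g.1 : Matrix (Fin m ⊕ Fin m) (Fin m ⊕ Fin m) F) :=
  (Group.isUnit g).map (Submonoid.subtype (Matrix.symplecticGroup (Fin m) F))

lemma matType_eq_of_isConj {g g' : Matrix.symplecticGroup (Fin m) F} (h : IsConj g g') :
    matType (g.1 : Matrix (Fin m ⊕ Fin m) (Fin m ⊕ Fin m) F) = matType g'.1 := by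
  have h1 := MonoidHom.map_isConj (Submonoid.subtype (Matrix.symplecticGroup (Fin m) F)) h
  exact (isConj_iff_matType' (isUnit_sp g) (isUnit_sp g')).1 h1

lemma pow_eq_one_iff_sp {p : ℕ} [Fact p.Prime] [CharP F p] (g : Matrix.symplecticGroup (Fin m) F) :
    g ^ p = 1 ↔ ∀ a ∈ matType (g.1 : Matrix (Fin m ⊕ Fin m) (Fin m ⊕ Fin m) F), a.1 = X - 1 ∧ a.2 ≤ p := by
  rw [← pow_eq_one_iff_type, Subtype.ext_iff]
  rfl

/-- the partition attached to a unipotent matrix -/
noncomputable def partOf (A : Matrix (Fin m ⊕ Fin m) (Fin m ⊕ Fin m) F)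
    (h : ∀ a ∈ matType A, a.1 = X - 1) : Nat.Partition (2 * m) where
  parts := (matType A).map Prod.snd
  parts_pos := by
    intro i hi
    obtain ⟨a, ha, rfl⟩ := Multiset.mem_map.1 hi
    exact (matType_adm A a ha).2.2
  parts_sum := by
    have h1 := sum_matType A
    rw [Fintype.card_sum, Fintype.card_fin, ← two_mul] at h1
    refine Eq.trans ?_ h1
    congr 1
    refine Multiset.map_congr rfl fun a ha => ?_
    rw [h a ha, natDegree_X_sub_one, mul_one]

/-- the classes of type `μ` with parts at most `p` -/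
abbrev AC (p : ℕ) (F : Type*) [Field F] {m : ℕ} (μ : Nat.Partition (2 * m)) : Type _ :=
  {C : ConjClasses (Matrix.symplecticGroup (Fin m) F) // ∃ g : Matrix.symplecticGroup (Fin m) F,
    ConjClasses.mk g = C ∧ (∀ a ∈ μ.parts, a ≤ p) ∧ IsTyp μ.parts g.1}

open scoped _root_.Classical in
lemma card_AC [Fintype F] {p : ℕ} [Fact p.Prime] [CharP F p] (hp : p ≠ 2) (μ : Nat.Partition (2 * m)) :
    Nat.card (AC p F μ) =
      if (∀ a ∈ μ.parts, a ≤ p) ∧ ∀ j : ℕ, Odd j → Even (μ.parts.count j) then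
        2 ^ ((μ.parts.toFinset.filter (fun j : ℕ => Even j)).card) else 0 := by
  have hpp : p.Prime := Fact.out
  have h2 : (2 : F) ≠ 0 := by
    intro h
    have h3 : ((2 : ℕ) : F) = 0 := by exact_mod_cast h
    rw [CharP.cast_eq_zero_iff F p] at h3
    exact hp ((Nat.prime_dvd_prime_iff_eq hpp Nat.prime_two).1 h3)
  obtain ⟨t, d, hs⟩ := exists_enum μ.parts
  have hd : ∀ k, 1 ≤ d k := by
    intro k
    have : d k ∈ μ.parts := by
      rw [← hs]
      exact Multiset.mem_map_of_mem _ (Finset.mem_univ k)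
    exact μ.parts_pos this
  have hcard : Fintype.card (Idx d) = Fintype.card (Fin m ⊕ Fin m) := by
    rw [Fintype.card_sigma, Fintype.card_sum, Fintype.card_fin, ← two_mul, ← μ.parts_sum, ← hs]
    simp [Finset.sum]
  let e : Idx d ≃ (Fin m ⊕ Fin m) := Fintype.equivOfCardEq hcard
  have hiff : ∀ g : Matrix.symplecticGroup (Fin m) F,
      IsConj (Matrix.reindex e e (Cfsg.jordanTypeMatrix d F)) g.1 ↔ IsTyp μ.parts g.1 := fun g =>
    isConj_iff_isTyp hd e hs (isUnit_sp g)
  have hfib : ∀ j, Fintype.card (Fib d j) = μ.parts.count j := by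
    intro j
    rw [← hs, Multiset.count_map, Fintype.card_subtype]
    simp [Finset.card, Finset.filter, eq_comm]
  split_ifs with hc
  · obtain ⟨hle, hodd⟩ := hc
    have h3 := card_classes (F := F) (p := p) hp hd e (fun j hj => by rw [hfib]; exact hodd j hj)
    have h4 : Esz d = μ.parts.toFinset.filter (fun j : ℕ => Even j) := by
      ext j
      simp only [Esz, Finset.mem_filter, Finset.mem_image, Finset.mem_univ, true_and,
        Multiset.mem_toFinset, ← hs, Multiset.mem_map, Finset.mem_val]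
    rw [← h4, ← h3]
    refine Nat.card_congr (Equiv.subtypeEquivRight fun C => ?_)
    constructor
    · rintro ⟨g, hC, -, hg⟩
      exact ⟨g, hC, (hiff g).2 hg⟩
    · rintro ⟨g, hC, hg⟩
      exact ⟨g, hC, hle, (hiff g).1 hg⟩
  · haveI : IsEmpty (AC p F μ) := by
      refine ⟨?_⟩
      rintro ⟨C, g, hC, hle, hg⟩
      refine hc ⟨hle, fun j hj => ?_⟩
      rw [← hfib]
      exact even_card_fib h2 hd e g ((hiff g).2 hg) hj
    exact Nat.card_of_isEmpty

open scoped _root_.Classical in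
/-- the main count -/
theorem card_order_p_classes [Fintype F] {p : ℕ} [Fact p.Prime] [CharP F p] (hp : p ≠ 2) (m : ℕ) :
    Nat.card {C : ConjClasses ↥(Matrix.symplecticGroup (Fin m) F) // ∃ g : Matrix.symplecticGroup (Fin m) F,
      ConjClasses.mk g = C ∧ orderOf g = p} + 1 =
    (∑ μ ∈ Finset.univ.filter (fun μ : Nat.Partition (2 * m) => (∀ a ∈ μ.parts, a ≤ p) ∧
      ∀ j : ℕ, Odd j → Even (μ.parts.count j)), 2 ^ ((μ.parts.toFinset.filter (fun j : ℕ => Even j)).card)) := by
  have hpp : p.Prime := Fact.out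
  haveI : Finite (Matrix.symplecticGroup (Fin m) F) := inferInstance
  haveI : Finite (ConjClasses (Matrix.symplecticGroup (Fin m) F)) :=
    Finite.of_surjective ConjClasses.mk ConjClasses.mk_surjective
  rw [Finset.sum_filter]
  simp only [← card_AC (F := F) hp]
  rw [← Nat.card_sigma, ← Finite.card_option]
  refine Nat.card_congr ?_
  refine Equiv.trans (β := {C : ConjClasses (Matrix.symplecticGroup (Fin m) F) // ∃ g : Matrix.symplecticGroup (Fin m) F,
      ConjClasses.mk g = C ∧ g ^ p = 1}) ?_ (Equiv.ofBijective (fun x : (Σ μ : Nat.Partition (2 * m), AC p F μ) =>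
    (⟨x.2.1, ?_⟩ : {C : ConjClasses (Matrix.symplecticGroup (Fin m) F) // ∃ g : Matrix.symplecticGroup (Fin m) F,
      ConjClasses.mk g = C ∧ g ^ p = 1})) ⟨?_, ?_⟩).symm
  · -- the classes of exponent `p`
    refine Equiv.ofBijective (fun x => Option.elim x ⟨ConjClasses.mk 1, 1, rfl, one_pow p⟩
      (fun y => ⟨y.1, y.2.choose, y.2.choose_spec.1, ?_⟩)) ⟨?_, ?_⟩
    · have h0 := pow_orderOf_eq_one y.2.choose
      rwa [y.2.choose_spec.2] at h0
    · have h1 : ∀ y : {C : ConjClasses (Matrix.symplecticGroup (Fin m) F) // ∃ g : Matrix.symplecticGroup (Fin m) F,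
          ConjClasses.mk g = C ∧ orderOf g = p}, y.1 ≠ ConjClasses.mk 1 := by
        rintro ⟨C, g, rfl, hg⟩ h2
        have h3 : g = 1 := by
          have h4 := ConjClasses.mk_eq_mk_iff_isConj.1 h2
          exact isConj_one_right.1 h4.symm
        rw [h3, orderOf_one] at hg
        exact hpp.ne_one hg.symm
      rintro (_ | y) (_ | y') h
      · rfl
      · exact absurd (congrArg Subtype.val h).symm (h1 y')
      · exact absurd (congrArg Subtype.val h) (h1 y)
      · have h2 := congrArg Subtype.val h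
        exact congrArg some (Subtype.ext h2)
    · rintro ⟨C, g, rfl, hg⟩
      by_cases h1 : g = 1
      · subst h1
        exact ⟨none, rfl⟩
      · exact ⟨some ⟨ConjClasses.mk g, g, rfl, orderOf_eq_prime hg h1⟩, rfl⟩
  · obtain ⟨μ, C, g, hC, hle, htyp⟩ := x
    refine ⟨g, hC, (pow_eq_one_iff_sp g).2 fun a ha => ⟨htyp.1 a ha, hle _ ?_⟩⟩
    rw [← htyp.2]
    exact Multiset.mem_map_of_mem _ ha
  · rintro ⟨μ, C, g, hC, hle, htyp⟩ ⟨μ', C', g', hC', hle', htyp'⟩ h
    have hCC : C = C' := congrArg Subtype.val h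
    subst hCC
    have hconj : IsConj g g' := by
      rw [← ConjClasses.mk_eq_mk_iff_isConj, hC, hC']
    have h1 := matType_eq_of_isConj hconj
    have h2 : μ.parts = μ'.parts := by
      rw [← htyp.2, ← htyp'.2, h1]
    obtain rfl : μ = μ' := Nat.Partition.ext h2
    rfl
  · rintro ⟨C, g, rfl, hg⟩
    have h1 := (pow_eq_one_iff_sp g).1 hg
    refine ⟨⟨partOf g.1 (fun a ha => (h1 a ha).1), ConjClasses.mk g, g, rfl, ?_, fun a ha => (h1 a ha).1, rfl⟩, rfl⟩
    intro a ha
    have ha' : a ∈ (matType g.1).map Prod.snd := ha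
    obtain ⟨b, hb, rfl⟩ := Multiset.mem_map.1 ha'
    exact (h1 b hb).2

end Main

end Cfsg.Agent.Lib.Linalg.JordanCent.SpType
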